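import Cfsg.Agent.H997.Rg.Str

/-!
# Linear actions of elements of prime order (helper898; S3691, residual case F-D+2, piece 11.2 (a))

* `lin_dvd` : if `T ^ s = 1`, `s` a prime not dividing `q`, then `ord_s(q)` divides `dim V - dim C_V(T)`
* `sum_fix` : for commuting `a`, `b` of order `s` the dimension of `V` is at most the sum of the dimensions of the `s + 1` fixed spaces
* `commute_of_free` : no Frobenius groups of fixed point free elements
* `cyc_of`, `fit_of` : cyclic Sylow subgroups; centralising the Fitting subgroup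
* `nc_le` : `|N(⟨y⟩)/C(y)|` is at most the dimension
-/

set_option autoImplicit false

open Subgroup Cfsg Module
open Cfsg.Agent.H997.Rg

namespace Cfsg.Agent.H898.D2

section lin

variable {F V : Type*} [Field F] [AddCommGroup V] [Module F V]

/-- the fixed space of an endomorphism -/
def fxl (T : Module.End F V) : Submodule F V := LinearMap.ker (T - 1)

theorem mem_fxl {T : Module.End F V} {v : V} : v ∈ fxl T ↔ T v = v := by
  rw [fxl, LinearMap.mem_ker, LinearMap.sub_apply, Module.End.one_apply, sub_eq_zero]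

theorem pow_mod {s q n e : ℕ} [Fact s.Prime] (hsq : ¬ s ∣ q) (hen : e ≤ n) (h : q ^ n ≡ q ^ e [MOD s]) :
    orderOf (q : ZMod s) ∣ n - e := by
  have h1 : ((q ^ n : ℕ) : ZMod s) = ((q ^ e : ℕ) : ZMod s) := (ZMod.natCast_eq_natCast_iff _ _ _).2 h
  have hq0 : (q : ZMod s) ≠ 0 := by
    rw [Ne, ZMod.natCast_eq_zero_iff]; exact hsq
  apply orderOf_dvd_of_pow_eq_one
  push_cast at h1
  have h2 : (q : ZMod s) ^ e * (q : ZMod s) ^ (n - e) = (q : ZMod s) ^ e * 1 := by
    rw [← pow_add, Nat.add_sub_cancel' hen, h1, mul_one]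
  exact mul_left_cancel₀ (pow_ne_zero _ hq0) h2

theorem lin_dvd [Finite F] [FiniteDimensional F V] {s : ℕ} (hs : s.Prime) (hsq : ¬ s ∣ Nat.card F) {T : Module.End F V}
    (hT : T ^ s = 1) : orderOf ((Nat.card F : ℕ) : ZMod s) ∣ finrank F V - finrank F (fxl T) := by
  have := Fact.mk hs
  have hfV : Finite V := Module.finite_of_finite F
  let u : (Module.End F V)ˣ := ⟨T, T ^ (s - 1), by
    rw [← pow_succ', Nat.sub_add_cancel hs.one_lt.le, hT], by
    rw [← pow_succ, Nat.sub_add_cancel hs.one_lt.le, hT]⟩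
  have hu : u ^ s = 1 := Units.ext (by rw [Units.val_pow_eq_pow_val, Units.val_one]; exact hT)
  have hp : IsPGroup s (zpowers u) := by
    intro x
    refine ⟨1, ?_⟩
    obtain ⟨k, hk⟩ := mem_zpowers_iff.1 x.2
    apply Subtype.ext
    rw [Subgroup.coe_pow, ← hk, Subgroup.coe_one, pow_one, ← zpow_natCast, ← zpow_mul, mul_comm, zpow_mul, zpow_natCast, hu,
      one_zpow]
  let _ : MulAction (zpowers u) V := MulAction.compHom V ((Units.coeHom (Module.End F V)).comp (zpowers u).subtype)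
  have h1 := hp.card_modEq_card_fixedPoints V
  have h2 : Nat.card (MulAction.fixedPoints (zpowers u) V) = Nat.card (fxl T) := by
    refine Nat.card_congr (Equiv.subtypeEquivRight fun v => ?_)
    rw [mem_fxl]
    constructor
    · intro h
      exact h ⟨u, mem_zpowers u⟩
    · intro h g
      obtain ⟨g, hg⟩ := g
      have hf : IsOfFinOrder u := by
        rw [isOfFinOrder_iff_pow_eq_one]; exact ⟨s, hs.pos, hu⟩
      obtain ⟨k, rfl⟩ := hf.mem_powers_iff_mem_zpowers.2 hg
      change ((u ^ k : (Module.End F V)ˣ) : Module.End F V) v = v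
      rw [Units.val_pow_eq_pow_val]
      change (T ^ k) v = v
      clear hg
      induction k with
      | zero => rfl
      | succ k ih => rw [pow_succ, Module.End.mul_apply, h, ih]
  rw [h2, Module.natCard_eq_pow_finrank (K := F) (V := V), Module.natCard_eq_pow_finrank (K := F) (V := fxl T)] at h1
  exact pow_mod hsq (Submodule.finrank_le _) h1

/-- the version for an invariant subspace -/
theorem lin_dvd_sub [Finite F] [FiniteDimensional F V] {s : ℕ} (hs : s.Prime) (hsq : ¬ s ∣ Nat.card F) {T : Module.End F V}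
    (hT : T ^ s = 1) (W : Submodule F V) (hW : ∀ w ∈ W, T w ∈ W) (h0 : ∀ w ∈ W, T w = w → w = 0) :
    orderOf ((Nat.card F : ℕ) : ZMod s) ∣ finrank F W := by
  have h1 := lin_dvd hs hsq (T := T.restrict hW) (by
    rw [Module.End.pow_restrict]
    ext w
    rw [LinearMap.coe_restrict_apply, hT]
    rfl)
  have h2 : fxl (T.restrict hW) = ⊥ := by
    rw [eq_bot_iff]
    intro w hw
    rw [mem_fxl] at hw
    rw [Submodule.mem_bot]
    apply Subtype.ext
    exact h0 w w.2 (congrArg Subtype.val hw)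
  rwa [h2, finrank_bot, Nat.sub_zero] at h1

/-- small invariant subspaces are fixed pointwise -/
theorem triv_of_lt [Finite F] [FiniteDimensional F V] {s : ℕ} (hs : s.Prime) (hsq : ¬ s ∣ Nat.card F) {T : Module.End F V}
    (hT : T ^ s = 1) (W : Submodule F V) (hW : ∀ w ∈ W, T w ∈ W)
    (hlt : finrank F W < orderOf ((Nat.card F : ℕ) : ZMod s)) : ∀ w ∈ W, T w = w := by
  have h1 := lin_dvd hs hsq (T := T.restrict hW) (by
    rw [Module.End.pow_restrict]
    ext w
    rw [LinearMap.coe_restrict_apply, hT]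
    rfl)
  have h2 : finrank F W - finrank F (fxl (T.restrict hW)) = 0 :=
    Nat.eq_zero_of_dvd_of_lt h1 (lt_of_le_of_lt (Nat.sub_le _ _) hlt)
  have h3 : fxl (T.restrict hW) = ⊤ := Submodule.eq_top_of_finrank_eq (le_antisymm (Submodule.finrank_le _) (by omega))
  intro w hw
  have h4 : (⟨w, hw⟩ : W) ∈ fxl (T.restrict hW) := by rw [h3]; trivial
  rw [mem_fxl] at h4
  exact congrArg Subtype.val h4

/-- the dimension of a supremum -/
theorem finrank_sup_le [FiniteDimensional F V] (n : ℕ) (f : ℕ → Submodule F V) (d : ℕ) (h : ∀ t < n, finrank F (f t) ≤ d) :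
    finrank F ((Finset.range n).sup f : Submodule F V) ≤ n * d := by
  induction n with
  | zero => rw [Finset.range_zero, Finset.sup_empty, finrank_bot]; exact Nat.zero_le _
  | succ n ih =>
    rw [Finset.range_add_one, Finset.sup_insert]
    have h1 := Submodule.finrank_add_le_finrank_add_finrank (f n) ((Finset.range n).sup f)
    have h2 := ih (fun t ht => h t (by omega))
    have h3 := h n (by omega)
    calc _ ≤ finrank F (f n) + finrank F ((Finset.range n).sup f : Submodule F V) := h1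
      _ ≤ d + n * d := Nat.add_le_add h3 h2
      _ = _ := by ring

end lin

section act

variable {F V K : Type*} [Field F] [AddCommGroup V] [Module F V] [Group K] {ρ : K →* Module.End F V}

/-- the fixed space of `g` -/
abbrev fx (ρ : K →* Module.End F V) (g : K) : Submodule F V := fxl (ρ g)

theorem fix_pow {g : K} {v : V} (h : ρ g v = v) (k : ℕ) : ρ (g ^ k) v = v := by
  induction k with
  | zero => rw [pow_zero, map_one]; rfl
  | succ k ih => rw [pow_succ, map_mul, Module.End.mul_apply, h, ih]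

theorem fix_inv {g : K} {v : V} (h : ρ g v = v) : ρ g⁻¹ v = v := by
  conv_lhs => rw [← h]
  rw [← Module.End.mul_apply, ← map_mul, inv_mul_cancel, map_one, Module.End.one_apply]

theorem fix_zpowers {g x : K} {v : V} (h : ρ g v = v) (hx : x ∈ zpowers g) : ρ x v = v := by
  obtain ⟨k, rfl⟩ := mem_zpowers_iff.1 hx
  obtain ⟨n, rfl | rfl⟩ := Int.eq_nat_or_neg k
  · rw [zpow_natCast]; exact fix_pow h n
  · rw [zpow_neg, zpow_natCast]; exact fix_inv (fix_pow h n)

/-- the average is fixed -/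
theorem sum_fixed {c : K} {s : ℕ} (hc : c ^ s = 1) (v : V) :
    ρ c (∑ t ∈ Finset.range s, ρ (c ^ t) v) = ∑ t ∈ Finset.range s, ρ (c ^ t) v := by
  rw [map_sum]
  have h1 : ∀ t ∈ Finset.range s, ρ c (ρ (c ^ t) v) = ρ (c ^ (t + 1)) v := by
    intro t _
    rw [← Module.End.mul_apply, ← map_mul, ← pow_succ']
  rw [Finset.sum_congr rfl h1]
  rcases s with _ | s
  · simp
  · rw [Finset.sum_range_succ, Finset.sum_range_succ', hc, pow_zero]

/-- `V` is the sum of the fixed spaces of the subgroups of order `s` of `⟨a, b⟩` -/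
theorem sum_fix {a b : K} {s : ℕ} (hs : s.Prime) (hsF : (s : F) ≠ 0) (ha : orderOf a = s) (hb : b ^ s = 1)
    (hab : Commute a b) : fx ρ a ⊔ (Finset.range s).sup (fun t => fx ρ (a ^ t * b)) = ⊤ := by
  have has : a ^ s = 1 := by rw [← ha]; exact pow_orderOf_eq_one a
  rw [eq_top_iff]
  rintro v -
  set W : Submodule F V := fx ρ a ⊔ (Finset.range s).sup (fun t => fx ρ (a ^ t * b)) with hW
  have h1 : ∀ t < s, ∑ j ∈ Finset.range s, ρ ((a ^ t * b) ^ j) v ∈ W := by
    intro t ht
    apply Submodule.mem_sup_right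
    refine (Finset.le_sup (f := fun t => fx ρ (a ^ t * b)) (Finset.mem_range.2 ht)) ?_
    rw [mem_fxl]
    apply sum_fixed
    rw [(hab.pow_left t).mul_pow, ← pow_mul, mul_comm t s, pow_mul, has, one_pow, one_mul, hb]
  have h2 : ∀ j : ℕ, 0 < j → j < s → ∀ w : V, ∑ t ∈ Finset.range s, ρ ((a ^ j) ^ t) w ∈ W := by
    intro j h0 hj w
    apply Submodule.mem_sup_left
    rw [mem_fxl]
    obtain ⟨i, hi⟩ := exists_pow_eq_self_of_coprime (x := a) (n := j)
      (by rw [ha]; exact ((Nat.Prime.coprime_iff_not_dvd hs).2 (Nat.not_dvd_of_pos_of_lt h0 hj)).symm)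
    have h3 := sum_fixed (ρ := ρ) (c := a ^ j) (s := s) (by rw [← pow_mul, mul_comm, pow_mul, has, one_pow]) w
    have h4 := fix_pow h3 i
    rwa [hi] at h4
  have h3 : ∑ t ∈ Finset.range s, ∑ j ∈ Finset.range s, ρ ((a ^ t * b) ^ j) v ∈ W :=
    Submodule.sum_mem _ fun t ht => h1 t (Finset.mem_range.1 ht)
  rw [Finset.sum_comm] at h3
  obtain ⟨k, rfl⟩ : ∃ k, s = k + 1 := ⟨s - 1, by have := hs.pos; omega⟩
  rw [Finset.sum_range_succ'] at h3
  have h4 : ∑ j ∈ Finset.range k, ∑ t ∈ Finset.range (k + 1), ρ ((a ^ t * b) ^ (j + 1)) v ∈ W := by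
    refine Submodule.sum_mem _ fun j hj => ?_
    have h5 : ∀ t ∈ Finset.range (k + 1), ρ ((a ^ t * b) ^ (j + 1)) v = ρ ((a ^ (j + 1)) ^ t) (ρ (b ^ (j + 1)) v) := by
      intro t _
      rw [(hab.pow_left t).mul_pow, ← pow_mul, mul_comm t, pow_mul, map_mul, Module.End.mul_apply]
    rw [Finset.sum_congr rfl h5]
    exact h2 (j + 1) (Nat.succ_pos j) (by have := Finset.mem_range.1 hj; omega) _
  have h5 := (Submodule.add_mem_iff_right W h4).1 h3
  simp only [pow_zero, map_one, Module.End.one_apply, Finset.sum_const, Finset.card_range] at h5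
  rw [← Nat.cast_smul_eq_nsmul F] at h5
  exact (Submodule.smul_mem_iff W hsF).1 h5

theorem dim_le_sum [FiniteDimensional F V] {a b : K} {s d : ℕ} (hs : s.Prime) (hsF : (s : F) ≠ 0) (ha : orderOf a = s)
    (hb : b ^ s = 1) (hab : Commute a b) (hda : finrank F (fx ρ a) ≤ d)
    (hd : ∀ t < s, finrank F (fx ρ (a ^ t * b)) ≤ d) : finrank F V ≤ (s + 1) * d := by
  have h1 := sum_fix (ρ := ρ) hs hsF ha hb hab
  have h2 := finrank_sup_le s (fun t => fx ρ (a ^ t * b)) d hd
  have h3 := Submodule.finrank_add_le_finrank_add_finrank (fx ρ a) ((Finset.range s).sup (fun t => fx ρ (a ^ t * b)))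
  rw [h1, finrank_top] at h3
  calc finrank F V ≤ _ := h3
    _ ≤ d + s * d := Nat.add_le_add hda h2
    _ = _ := by ring

/-- two elements of prime order fixing only `0`: `y` normalizes `⟨a⟩` implies `y` centralizes `a` -/
theorem commute_of_free {p : ℕ} [CharP F p] [Nontrivial V] (hp : p.Prime) {a y : K} {s r : ℕ} (hs : s.Prime)
    (hsp : s ≠ p) (ha : orderOf a = s) (hr : r.Prime) (hy : orderOf y = r)
    (ha0 : ∀ v, ρ a v = v → v = 0) (hy0 : ∀ v, ρ y v = v → v = 0)
    (hn : ∀ j : ℕ, y ^ j * a * (y ^ j)⁻¹ ∈ zpowers a) : Commute y a := by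
  have := Fact.mk hs
  by_contra hya
  have sum0 : ∀ {g : K} {n : ℕ}, orderOf g = n → (∀ v, ρ g v = v → v = 0) → ∑ t ∈ Finset.range n, ρ (g ^ t) = 0 := by
    intro g n hg h0
    ext v
    rw [LinearMap.sum_apply, LinearMap.zero_apply]
    exact h0 _ (sum_fixed (by rw [← hg]; exact pow_orderOf_eq_one g) v)
  have sum1 : ∀ {g : K}, orderOf g = r → (∀ v, ρ g v = v → v = 0) →
      ∑ t ∈ Finset.range (r - 1), ρ (g ^ (t + 1)) = -1 := by
    intro g hg h0
    have h1 := sum0 hg h0
    obtain ⟨k, rfl⟩ : ∃ k, r = k + 1 := ⟨r - 1, (Nat.succ_pred_eq_of_pos hr.pos).symm⟩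
    rw [Finset.sum_range_succ', pow_zero, map_one] at h1
    rw [Nat.add_sub_cancel]
    exact eq_neg_of_add_eq_zero_left h1
  have hyj : ∀ j : ℕ, 0 < j → j < r → ¬ Commute (y ^ j) a := by
    intro j h0 hj hc
    apply hya
    obtain ⟨i, hi⟩ := exists_pow_eq_self_of_coprime (x := y) (n := j)
      (by rw [hy]; exact ((Nat.Prime.coprime_iff_not_dvd hr).2 (Nat.not_dvd_of_pos_of_lt h0 hj)).symm)
    rw [← hi]
    exact hc.pow_left i
  have h1 : ∀ t : ℕ, orderOf (a ^ t * y * (a ^ t)⁻¹) = r := by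
    intro t; rw [← hy]; exact (MulAut.conj (a ^ t)).orderOf_eq y
  have h1' : ∀ t : ℕ, ∀ v, ρ (a ^ t * y * (a ^ t)⁻¹) v = v → v = 0 := by
    intro t v hv
    have h2 : ρ y (ρ (a ^ t)⁻¹ v) = ρ (a ^ t)⁻¹ v := by
      conv_rhs => rw [← hv]
      rw [← Module.End.mul_apply, ← Module.End.mul_apply, ← map_mul, ← map_mul]
      congr 2
      group
    have h3 := hy0 _ h2
    have h4 : ρ (a ^ t) (ρ (a ^ t)⁻¹ v) = v := by
      rw [← Module.End.mul_apply, ← map_mul, mul_inv_cancel, map_one, Module.End.one_apply]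
    rw [← h4, h3, map_zero]
  have h2 : ∑ t ∈ Finset.range s, ∑ j ∈ Finset.range (r - 1), ρ ((a ^ t * y * (a ^ t)⁻¹) ^ (j + 1)) =
      ∑ _t ∈ Finset.range s, (-1 : Module.End F V) :=
    Finset.sum_congr rfl fun t _ => sum1 (h1 t) (h1' t)
  apply natCast_ne_zero (F := F) (V := V) hs hp hsp
  rw [← h2, Finset.sum_comm]
  refine Finset.sum_eq_zero fun j hj => ?_
  have hj' : j + 1 < r := by
    have := Finset.mem_range.1 hj
    omega
  set z : K := y ^ (j + 1) with hz
  have hzn := hn (j + 1)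
  rw [← hz] at hzn
  obtain ⟨k, hk⟩ := mem_zpowers_iff.1 hzn
  have hca : Commute a (z * a * z⁻¹) := by rw [← hk]; exact (Commute.refl a).zpow_right k
  set w : K := a * (z * a * z⁻¹)⁻¹ with hw
  have hws : orderOf w = s := by
    apply orderOf_eq_prime
    · rw [hw, (hca.inv_right).mul_pow, inv_pow, conj_pow, ← ha, pow_orderOf_eq_one, mul_one, mul_inv_cancel, inv_one, mul_one]
    · intro h0
      have h3 : a = z * a * z⁻¹ := mul_inv_eq_one.1 h0
      exact hyj (j + 1) (Nat.succ_pos j) hj' (show z * a = a * z by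
        conv_rhs => rw [h3]
        group)
  have hwa : w ∈ zpowers a := mul_mem (mem_zpowers a) (inv_mem hzn)
  have haw : a ∈ zpowers w := by
    have h5 : zpowers w = zpowers a := by
      have hfa : Finite (zpowers a) := Nat.finite_of_card_ne_zero (by rw [Nat.card_zpowers, ha]; exact hs.ne_zero)
      apply Subgroup.eq_of_le_of_card_ge (zpowers_le.2 hwa)
      rw [Nat.card_zpowers, Nat.card_zpowers, ha, hws]
    rw [h5]; exact mem_zpowers a
  have h3 : ∀ t ∈ Finset.range s, ρ ((a ^ t * y * (a ^ t)⁻¹) ^ (j + 1)) = ρ (w ^ t) * ρ z := by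
    intro t _
    rw [conj_pow, ← hz, ← map_mul]
    congr 1
    rw [hw, (hca.inv_right).mul_pow, inv_pow, conj_pow]
    group
  rw [Finset.sum_congr rfl h3, ← Finset.sum_mul, sum0 hws (fun v hv => ha0 v (fix_zpowers hv haw)), zero_mul]

end act

section grp

variable {K : Type*} [Group K]

/-- a criterion for cyclic Sylow subgroups -/
theorem cyc_of [Finite K] {s : ℕ} (hs : s.Prime) (hs2 : s ≠ 2)
    (h : ∀ a b : K, Commute a b → orderOf a = s → orderOf b = s → b ∈ zpowers a) (P : Sylow s K) : IsCyclic P := by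
  have := Fact.mk hs
  by_cases hP : Nontrivial P
  swap
  · have : Subsingleton P := not_nontrivial_iff_subsingleton.1 hP
    infer_instance
  obtain ⟨z, hzc, hz⟩ := exists_central hs P.2 hP
  have hz1 : orderOf ((z : K)) = s := by
    rw [Subgroup.orderOf_coe]; exact hz
  have key : ∀ H : Subgroup P, Nat.card H = s → H = zpowers (z : P) := by
    intro H hH
    obtain ⟨a, ha⟩ := exists_prime_orderOf_dvd_card' (G := H) s (by rw [hH])
    have ha1 : orderOf (((a : P) : K)) = s := by
      rw [Subgroup.orderOf_coe, Subgroup.orderOf_coe]; exact ha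
    have hcm : Commute (z : K) (((a : P) : K)) := by
      have := mem_center_iff.1 hzc (a : P)
      exact (congrArg Subtype.val this).symm
    have h1 : zpowers (z : K) = zpowers ((a : P) : K) :=
      le_antisymm (zpowers_le.2 (h _ _ hcm.symm ha1 hz1)) (zpowers_le.2 (h _ _ hcm hz1 ha1))
    have h2 : zpowers (a : P) = zpowers (z : P) := by
      apply Subgroup.map_injective (P : Subgroup K).subtype_injective
      rw [MonoidHom.map_zpowers, MonoidHom.map_zpowers]
      exact h1.symm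
    have h3 : zpowers (a : P) = H := by
      apply Subgroup.eq_of_le_of_card_ge (zpowers_le.2 a.2)
      rw [hH, Nat.card_zpowers, Subgroup.orderOf_coe, ha]
    rw [← h3, h2]
  rcases Cfsg.Agent.S0016.result s P.2 (fun H H' hH hH' => by rw [key H hH, key H' hH']) with h1 | ⟨h1, _⟩
  · exact h1
  · exact absurd h1 hs2

/-- a criterion for centralising the Fitting subgroup -/
theorem fit_of [Finite K] {y : K} {r : ℕ} (hr : r.Prime) (hy : orderOf y = r)
    (hcyc : ∀ s : ℕ, s.Prime → s ≠ 2 → ∀ P : Sylow s K, IsCyclic P) (hO : ∀ a ∈ pCore 2 K, Commute y a)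
    (hcomm : ∀ (s : ℕ) (a : K), s.Prime → s ≠ 2 → orderOf a = s → (∀ j : ℕ, y ^ j * a * (y ^ j)⁻¹ ∈ zpowers a) →
      Commute y a) : y ∈ centralizer (fittingSubgroup K : Set K) := by
  have hyr : y ^ r = 1 := by rw [← hy]; exact pow_orderOf_eq_one y
  suffices hsuff : fittingSubgroup K ≤ centralizer ({y} : Set K) by
    rw [mem_centralizer_iff]
    intro x hx
    exact mem_centralizer_singleton_iff.1 (hsuff hx)
  rw [Cfsg.Agent.Lib.Cores.fittingSubgroup_eq_iSup_pCore]
  refine iSup_le fun s => ?_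
  obtain ⟨s, hs⟩ := s
  have := Fact.mk hs
  change pCore s K ≤ centralizer ({y} : Set K)
  have hCn : (pCore s K).Normal := Cfsg.Agent.Lib.Cores.pCore_normal s
  have hCp : IsPGroup s (pCore s K) := Cfsg.Agent.Lib.Cores.pCore_isPGroup s
  rcases eq_or_ne s 2 with rfl | hs2
  · intro x hx
    rw [mem_centralizer_singleton_iff]
    exact (hO x hx).symm.eq
  obtain ⟨P⟩ : Nonempty (Sylow s K) := inferInstance
  have hcP := hcyc s hs hs2 P
  have hle : pCore s K ≤ P := Cfsg.Agent.Lib.Cores.pCore_le_sylow P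
  have hcC : IsCyclic (pCore s K) := isCyclic_of_injective (inclusion hle) (inclusion_injective hle)
  obtain ⟨⟨c, hc⟩, hgen⟩ := hcC.exists_generator
  have hzc : pCore s K = zpowers c := by
    apply le_antisymm
    · intro x hx
      obtain ⟨i, hi⟩ := mem_zpowers_iff.1 (hgen ⟨x, hx⟩)
      exact mem_zpowers_iff.2 ⟨i, congrArg Subtype.val hi⟩
    · exact zpowers_le.2 hc
  rcases eq_or_ne r s with rfl | hrs
  · have hpy : IsPGroup r (zpowers y) := by
      rw [IsPGroup.iff_card]
      exact ⟨1, by rw [Nat.card_zpowers, hy, pow_one]⟩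
    obtain ⟨Q, hQ⟩ := hpy.exists_le_sylow
    have hcQ := hcyc r hs hs2 Q
    intro x hx
    rw [mem_centralizer_singleton_iff]
    have hxQ : x ∈ Q := Cfsg.Agent.Lib.Cores.pCore_le_sylow Q hx
    have hyQ : y ∈ Q := hQ (Subgroup.mem_zpowers y)
    let _ : CommGroup Q := hcQ.commGroup
    have := mul_comm (⟨x, hxQ⟩ : Q) ⟨y, hyQ⟩
    exact congrArg Subtype.val this
  have hco : ∃ k, orderOf c = s ^ k := by
    obtain ⟨k, hk⟩ := IsPGroup.iff_card.1 hCp
    refine ⟨k, ?_⟩
    rw [← Nat.card_zpowers, ← hzc]; exact hk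
  have hac := aut_cyc hs hr hrs hco (MulAut.conj y) (by rw [← map_pow, hyr, map_one])
    (by rw [← hzc]; exact hCn.conj_mem c hc y) (by
      intro z hz hzs
      have h1 : Commute y z := by
        refine hcomm s z hs hs2 hzs ?_
        intro j
        have h2 : y ^ j * z * (y ^ j)⁻¹ ∈ pCore s K := hCn.conj_mem z (by rw [hzc]; exact hz) _
        have h3 : orderOf z = orderOf (y ^ j * z * (y ^ j)⁻¹) := ((MulAut.conj (y ^ j)).orderOf_eq z).symm
        rw [zpowers_eq_of_cyclic hcC (by rw [hzc]; exact hz) h2 h3]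
        exact Subgroup.mem_zpowers _
      rw [MulAut.conj_apply, h1.eq]
      group)
  rw [MulAut.conj_apply] at hac
  have hyc : Commute y c := mul_inv_eq_iff_eq_mul.1 hac
  rw [hzc, zpowers_le, mem_centralizer_singleton_iff]
  exact hyc.symm.eq

end grp

section ncs

variable {F V K : Type*} [Field F] [AddCommGroup V] [Module F V] [Group K] {ρ : K →* Module.End F V}

open Polynomial in
/-- `|N_K(⟨y⟩)/C_K(y)|` is at most the dimension -/
theorem nc_le [Finite K] [FiniteDimensional F V] {y : K} {r : ℕ} (hr : r.Prime) (hrF : (r : F) ≠ 0)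
    (hy : orderOf y = r) (hy1 : ρ y ≠ 1) : nc y ≤ Module.finrank F V := by
  classical
  set N : Subgroup K := normalizer (zpowers y : Set K) with hN
  let κ : N →* MulAut (zpowers y) := normalizerMonoidHom (zpowers y)
  change Nat.card κ.range ≤ _
  have hyr : y ^ r = 1 := by rw [← hy]; exact pow_orderOf_eq_one y
  -- the root
  set E := AlgebraicClosure F with hE
  set m := minpoly F (ρ y) with hm
  have hint : IsIntegral F (ρ y) := Algebra.IsIntegral.isIntegral _
  have hmr : m ∣ X ^ r - 1 := by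
    apply minpoly.dvd
    rw [map_sub, map_pow, Polynomial.aeval_X, map_one, ← map_pow, hyr, map_one, sub_self]
  obtain ⟨ζ, hζ, hζ1⟩ : ∃ ζ : E, aeval ζ m = 0 ∧ ζ ≠ 1 := by
    by_contra hcon
    push Not at hcon
    have hcop : IsCoprime m (∑ i ∈ Finset.range r, (X : F[X]) ^ i) := by
      rw [Polynomial.isCoprime_iff_aeval_ne_zero_of_isAlgClosed F E]
      intro a
      by_cases ha : aeval a m = 0
      · right
        rw [hcon a ha, map_sum]
        simp only [map_pow, aeval_X, one_pow, Finset.sum_const, Finset.card_range, nsmul_eq_mul, mul_one]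
        intro h0
        apply hrF
        have h1 : algebraMap F E (r : F) = 0 := by rw [map_natCast]; exact h0
        exact (map_eq_zero _).1 h1
      · left; exact ha
    have h1 : m ∣ (X - 1) * ∑ i ∈ Finset.range r, (X : F[X]) ^ i := by
      rw [mul_geom_sum]; exact hmr
    have h2 : m ∣ X - 1 := hcop.dvd_of_dvd_mul_right h1
    apply hy1
    obtain ⟨c, hc⟩ := h2
    have h3 := congrArg (aeval (ρ y)) hc
    rw [map_sub, aeval_X, map_one, map_mul, minpoly.aeval, zero_mul, sub_eq_zero] at h3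
    exact h3
  have hζr : ζ ^ r = 1 := by
    have h2 := Polynomial.aeval_eq_zero_of_dvd_aeval_eq_zero hmr hζ
    rw [map_sub, map_pow, Polynomial.aeval_X, map_one, sub_eq_zero] at h2
    exact h2
  have hζo : orderOf ζ = r := by
    have := Fact.mk hr
    exact orderOf_eq_prime hζr hζ1
  -- the exponents
  have hex : ∀ φ : MulAut (zpowers y), ∃ k : ℕ, ((φ ⟨y, Subgroup.mem_zpowers y⟩ : zpowers y) : K) = y ^ k := by
    intro φ
    have hf : IsOfFinOrder y := isOfFinOrder_of_finite y
    obtain ⟨k, hk⟩ := hf.mem_powers_iff_mem_zpowers.2 (φ ⟨y, Subgroup.mem_zpowers y⟩).2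
    exact ⟨k, hk.symm⟩
  choose k hk using hex
  have hroot : ∀ φ : κ.range, ζ ^ k (φ : MulAut (zpowers y)) ∈ m.rootSet E := by
    rintro ⟨_, ⟨g, rfl⟩⟩
    rw [Polynomial.mem_rootSet]
    refine ⟨minpoly.ne_zero hint, ?_⟩
    have h1 := hk (κ g)
    have h2 : ((κ g ⟨y, Subgroup.mem_zpowers y⟩ : zpowers y) : K) = g * y * (g : K)⁻¹ := rfl
    rw [h2] at h1
    have h3 : ρ g * ρ y = ρ (y ^ k (κ g)) * ρ g := by
      rw [← h1, ← map_mul, ← map_mul]
      congr 1; group
    have h4 := semiconj_aeval h3 m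
    rw [minpoly.aeval, mul_zero] at h4
    have h5 : Polynomial.aeval (ρ (y ^ k (κ g))) m = 0 := by
      have h6 := congrArg (fun z => z * ρ (g : K)⁻¹) h4.symm
      simp only [zero_mul] at h6
      rwa [mul_assoc, ← map_mul, mul_inv_cancel, map_one, mul_one] at h6
    have h6 : m ∣ m.comp (Polynomial.X ^ k (κ g)) := by
      apply minpoly.dvd
      rw [Polynomial.aeval_comp, map_pow, Polynomial.aeval_X, ← map_pow]
      exact h5
    have h7 := Polynomial.aeval_eq_zero_of_dvd_aeval_eq_zero h6 hζ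
    rw [Polynomial.aeval_comp, map_pow, Polynomial.aeval_X] at h7
    exact h7
  have hinj : Function.Injective (fun φ : κ.range => (⟨ζ ^ k (φ : MulAut (zpowers y)), hroot φ⟩ : m.rootSet E)) := by
    intro φ ψ hφψ
    have h1 : ζ ^ k (φ : MulAut (zpowers y)) = ζ ^ k (ψ : MulAut (zpowers y)) := congrArg Subtype.val hφψ
    have hζ0 : ζ ≠ 0 := by
      rintro h0
      rw [h0, zero_pow hr.ne_zero] at hζr
      exact zero_ne_one hζr
    have h1' : (Units.mk0 ζ hζ0) ^ k (φ : MulAut (zpowers y)) = (Units.mk0 ζ hζ0) ^ k (ψ : MulAut (zpowers y)) := by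
      apply Units.ext
      rw [Units.val_pow_eq_pow_val, Units.val_pow_eq_pow_val, Units.val_mk0]
      exact h1
    have ho' : orderOf (Units.mk0 ζ hζ0) = r := by
      rw [← hζo, ← orderOf_units, Units.val_mk0]
    rw [pow_eq_pow_iff_modEq, ho', ← hy, ← pow_eq_pow_iff_modEq, ← hk, ← hk] at h1'
    have h2 := Subtype.ext h1'
    apply Subtype.ext
    ext ⟨x, hx⟩
    obtain ⟨i, rfl⟩ := mem_zpowers_iff.1 hx
    have h3 : (⟨y ^ i, hx⟩ : zpowers y) = (⟨y, Subgroup.mem_zpowers y⟩ : zpowers y) ^ i := rfl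
    rw [h3, map_zpow, map_zpow, h2]
  have h1 : Nat.card κ.range ≤ Nat.card (m.rootSet E) := by
    have : Finite (m.rootSet E) := (Polynomial.rootSet_finite m E).to_subtype
    exact Nat.card_le_card_of_injective _ hinj
  have h2 : Nat.card (m.rootSet E) ≤ m.natDegree := by
    rw [Nat.card_coe_set_eq]
    exact Polynomial.ncard_rootSet_le m E
  have h3 : m.natDegree ≤ Module.finrank F V := by
    have h4 : m ∣ (ρ y).charpoly := LinearMap.minpoly_dvd_charpoly (ρ y)
    rw [← LinearMap.charpoly_natDegree (ρ y)]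
    exact Polynomial.natDegree_le_of_dvd h4 (LinearMap.charpoly_monic (ρ y)).ne_zero
  exact h1.trans (h2.trans h3)

end ncs

section pgr

variable {F V K : Type*} [Field F] [AddCommGroup V] [Module F V] [Group K] {ρ : K →* Module.End F V}

/-- the common fixed space of a subgroup -/
def fxs (ρ : K →* Module.End F V) (P : Subgroup K) : Submodule F V where
  carrier := {v | ∀ g ∈ P, ρ g v = v}
  zero_mem' := fun g _ => map_zero _
  add_mem' := fun {a b} ha hb g hg => by rw [map_add, ha g hg, hb g hg]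
  smul_mem' := fun c v hv g hg => by rw [map_smul, hv g hg]

theorem mem_fxs {P : Subgroup K} {v : V} : v ∈ fxs ρ P ↔ ∀ g ∈ P, ρ g v = v := Iff.rfl

theorem exists_fixed [Finite F] [FiniteDimensional F V] [Nontrivial V] {p : ℕ} (hp : p.Prime) (hpF : p ∣ Nat.card F)
    {P : Subgroup K} (hP : IsPGroup p P) : ∃ v ∈ fxs ρ P, v ≠ 0 := by
  have := Fact.mk hp
  have hfV : Finite V := Module.finite_of_finite F
  let _ : MulAction P V := MulAction.compHom V (ρ.comp P.subtype)
  have h1 : p ∣ Nat.card V := by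
    rw [Module.natCard_eq_pow_finrank (K := F) (V := V)]
    exact dvd_pow hpF Module.finrank_pos.ne'
  have h0 : (0 : V) ∈ MulAction.fixedPoints P V := fun g => map_zero (ρ (g : K))
  obtain ⟨v, hv, hv0⟩ := hP.exists_fixed_point_of_prime_dvd_card_of_fixed_point V h1 h0
  exact ⟨v, fun g hg => hv ⟨g, hg⟩, hv0.symm⟩

theorem fxs_inv {P : Subgroup K} {z : K} (hPz : ∀ g ∈ P, z⁻¹ * g * z ∈ P) {w : V} (hw : w ∈ fxs ρ P) :
    ρ z w ∈ fxs ρ P := by
  intro g hg
  have h6 : ρ g (ρ z w) = ρ z (ρ (z⁻¹ * g * z) w) := by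
    rw [← Module.End.mul_apply, ← Module.End.mul_apply, ← map_mul, ← map_mul]
    congr 2
    group
  rw [h6, hw _ (hPz g hg)]

/-- the action on an invariant subspace -/
def resRep (ρ : K →* Module.End F V) (S : Submodule F V) (hS : ∀ g, ∀ w ∈ S, ρ g w ∈ S) : K →* Module.End F S where
  toFun g := (ρ g).restrict (hS g)
  map_one' := by
    ext w
    rw [LinearMap.coe_restrict_apply, map_one]
    rfl
  map_mul' a b := by
    ext w
    rw [LinearMap.coe_restrict_apply, map_mul]
    rfl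

theorem resRep_apply {S : Submodule F V} (hS : ∀ g, ∀ w ∈ S, ρ g w ∈ S) (g : K) (w : S) :
    ((resRep ρ S hS g w : S) : V) = ρ g w := rfl

theorem exists_fixed_sub [Finite F] [FiniteDimensional F V] {p : ℕ} (hp : p.Prime) (hpF : p ∣ Nat.card F)
    {S : Submodule F V} (hS : ∀ g, ∀ w ∈ S, ρ g w ∈ S) (hS0 : S ≠ ⊥) {P : Subgroup K} (hP : IsPGroup p P) :
    ∃ v ∈ S, v ∈ fxs ρ P ∧ v ≠ 0 := by
  have : Nontrivial S := (Submodule.nontrivial_iff_ne_bot).2 hS0
  obtain ⟨v, hv, hv0⟩ := exists_fixed (ρ := resRep ρ S hS) hp hpF hP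
  exact ⟨v, v.2, fun g hg => congrArg Subtype.val (hv g hg), fun h => hv0 (Subtype.ext h)⟩

/-- `V` irreducible under `z`: `p`-subgroups normalised by `z` act trivially -/
theorem fxs_top [Finite F] [FiniteDimensional F V] [Nontrivial V] {p m : ℕ} (hp : p.Prime) (hpF : p ∣ Nat.card F) {z : K}
    (hz : ∀ W : Submodule F V, (∀ w ∈ W, ρ z w ∈ W) → m ∣ finrank F W) (hd : finrank F V = m) {P : Subgroup K}
    (hP : IsPGroup p P) (hPz : ∀ g ∈ P, z⁻¹ * g * z ∈ P) : fxs ρ P = ⊤ := by
  obtain ⟨v, hv, hv0⟩ := exists_fixed (ρ := ρ) hp hpF hP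
  have h1 : m ∣ finrank F (fxs ρ P) := hz _ fun w hw => fxs_inv hPz hw
  have h2 : 0 < finrank F (fxs ρ P) := by
    have : Nontrivial (fxs ρ P) := ⟨⟨⟨v, hv⟩, 0, fun h => hv0 (congrArg Subtype.val h)⟩⟩
    exact Module.finrank_pos
  apply Submodule.eq_top_of_finrank_eq
  exact le_antisymm (Submodule.finrank_le _) (by rw [hd]; exact Nat.le_of_dvd h2 h1)

/-- `dim V = 2 m`, all `z`-invariant subspaces have dimension divisible by `m`: `p`-subgroups of `C(z)` have order at most `q ^ m` -/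
theorem card_le_of_cent [Finite F] [FiniteDimensional F V] [Nontrivial V] {p m : ℕ} (hp : p.Prime) (hpF : p ∣ Nat.card F)
    (hinj : Function.Injective ρ) {z : K}
    (hz : ∀ W : Submodule F V, (∀ w ∈ W, ρ z w ∈ W) → m ∣ finrank F W) (hd : finrank F V = 2 * m)
    {P : Subgroup K} (hP : IsPGroup p P) (hPz : ∀ g ∈ P, Commute g z) : Nat.card P ≤ Nat.card F ^ m := by
  have := Fact.mk hp
  have hfV : Finite V := Module.finite_of_finite F
  have hF1 : 1 ≤ Nat.card F := Nat.card_pos
  by_cases hP1 : P = ⊥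
  · rw [hP1, Subgroup.card_bot]
    exact Nat.one_le_pow _ _ hF1
  set W := fxs ρ P with hW
  have hWz : ∀ w ∈ W, ρ z w ∈ W := by
    intro w hw g hg
    rw [← Module.End.mul_apply, ← map_mul, (hPz g hg).eq, map_mul, Module.End.mul_apply, hw g hg]
  have hdim : ∀ U : Submodule F V, (∀ w ∈ U, ρ z w ∈ U) → U ≠ ⊥ → U ≠ ⊤ → finrank F U = m := by
    intro U hU hU0 hU1
    obtain ⟨k, hk⟩ := hz U hU
    have h1 := Submodule.finrank_lt hU1
    have h2 : 0 < finrank F U := Nat.pos_of_ne_zero fun h => hU0 (Submodule.finrank_eq_zero.1 h)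
    rw [hk, hd] at h1
    rw [hk] at h2
    have hk1 : k = 1 := by
      rcases k with _ | _ | k
      · omega
      · rfl
      · exfalso; nlinarith
    rw [hk, hk1, mul_one]
  obtain ⟨v0, hv0, hv00⟩ := exists_fixed (ρ := ρ) hp hpF hP
  have hWb : W ≠ ⊥ := fun h => hv00 ((Submodule.eq_bot_iff _).1 h v0 hv0)
  have hfxt : ∀ g : K, g ≠ 1 → fx ρ g ≠ ⊤ := by
    intro g hg h
    apply hg
    apply hinj
    rw [map_one]
    ext v
    have : v ∈ fx ρ g := by rw [h]; trivial
    exact mem_fxl.1 this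
  have hWle : ∀ g ∈ P, W ≤ fx ρ g := fun g hg w hw => mem_fxl.2 (hw g hg)
  have hWt : W ≠ ⊤ := by
    intro h
    apply hP1
    rw [eq_bot_iff]
    intro g hg
    rw [Subgroup.mem_bot]
    by_contra hg1
    exact hfxt g hg1 (top_le_iff.1 (h ▸ hWle g hg))
  have hWd := hdim W hWz hWb hWt
  have hfxW : ∀ g ∈ P, g ≠ 1 → fx ρ g = W := by
    intro g hg hg1
    symm
    apply Submodule.eq_of_le_of_finrank_eq (hWle g hg)
    rw [hWd]
    symm
    apply hdim _ _ _ (hfxt g hg1)
    · intro w hw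
      rw [mem_fxl] at hw ⊢
      rw [← Module.End.mul_apply, ← map_mul, (hPz g hg).eq, map_mul, Module.End.mul_apply, hw]
    · intro h
      exact hWb (le_bot_iff.1 (h ▸ hWle g hg))
  -- the second fixed space
  let W2 : Submodule F V :=
    { carrier := {v | ∀ g ∈ P, ρ g v - v ∈ W}
      zero_mem' := fun g _ => by rw [map_zero, sub_zero]; exact W.zero_mem
      add_mem' := fun {a b} ha hb g hg => by
        have : ρ g (a + b) - (a + b) = (ρ g a - a) + (ρ g b - b) := by rw [map_add]; abel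
        rw [this]
        exact W.add_mem (ha g hg) (hb g hg)
      smul_mem' := fun c v hv g hg => by
        have : ρ g (c • v) - c • v = c • (ρ g v - v) := by rw [map_smul, smul_sub]
        rw [this]
        exact W.smul_mem c (hv g hg) }
  have hWW2 : W ≤ W2 := by
    intro w hw g hg
    rw [hw g hg, sub_self]; exact W.zero_mem
  have hW2z : ∀ w ∈ W2, ρ z w ∈ W2 := by
    intro w hw g hg
    have : ρ g (ρ z w) - ρ z w = ρ z (ρ g w - w) := by
      rw [map_sub, ← Module.End.mul_apply, ← map_mul, (hPz g hg).eq, map_mul, Module.End.mul_apply]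
    rw [this]
    exact hWz _ (hw g hg)
  obtain ⟨v1, hv1, hv1W⟩ : ∃ v1 ∈ W2, v1 ∉ W := by
    have hPW : ∀ g ∈ P, ∀ w ∈ W, ρ g w ∈ W := fun g hg w hw => by rw [hw g hg]; exact hw
    let ρq : P →* Module.End F (V ⧸ W) :=
      { toFun := fun g => W.mapQ W (ρ (g : K)) (fun w hw => hPW g g.2 w hw)
        map_one' := by
          ext v
          simp
        map_mul' := fun a b => by
          ext v
          simp }
    have hnt : Nontrivial (V ⧸ W) := Submodule.Quotient.nontrivial_iff.2 hWt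
    have hPt : IsPGroup p (⊤ : Subgroup P) := hP.to_subgroup _
    obtain ⟨x, hx, hx0⟩ := exists_fixed (ρ := ρq) hp hpF hPt
    obtain ⟨v, rfl⟩ := Submodule.Quotient.mk_surjective W x
    refine ⟨v, fun g hg => ?_, fun hv => hx0 ((Submodule.Quotient.mk_eq_zero W).2 hv)⟩
    have h1 : Submodule.Quotient.mk (p := W) (ρ g v) = Submodule.Quotient.mk v := hx ⟨g, hg⟩ trivial
    exact (Submodule.Quotient.eq W).1 h1
  have hW2t : W2 = ⊤ := by
    by_contra hne
    have h1 := hdim W2 hW2z (fun h => hWb (le_bot_iff.1 (h ▸ hWW2))) hne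
    have h2 := Submodule.eq_of_le_of_finrank_eq hWW2 (by rw [hWd, h1])
    exact hv1W (h2 ▸ hv1)
  have hcW : Nat.card W = Nat.card F ^ m := by
    rw [Module.natCard_eq_pow_finrank (K := F) (V := W), hWd]
  rw [← hcW]
  refine Nat.card_le_card_of_injective (fun g : P => (⟨ρ (g : K) v1 - v1, hv1 g g.2⟩ : W)) ?_
  intro a b hab
  have h1 : ρ (a : K) v1 - v1 = ρ (b : K) v1 - v1 := congrArg Subtype.val hab
  have h2 : ρ (a : K) v1 = ρ (b : K) v1 := sub_left_inj.1 h1
  by_contra hne
  have h3 : ((b : K)⁻¹ * a) ≠ 1 := fun h => hne (Subtype.ext (inv_mul_eq_one.1 h).symm)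
  have h4 : v1 ∈ fx ρ ((b : K)⁻¹ * a) := by
    rw [mem_fxl, map_mul, Module.End.mul_apply, h2, ← Module.End.mul_apply, ← map_mul, inv_mul_cancel, map_one,
      Module.End.one_apply]
  rw [hfxW _ (mul_mem (inv_mem b.2) a.2) h3] at h4
  exact hv1W h4

end pgr

end Cfsg.Agent.H898.D2
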