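import Cfsg.Agent.H898.D2.Act
import Cfsg.Agent.H997.Rg.Fam
import Cfsg.Agent.Lib.Zsigmondy

/-!
# The core of the case `q = 2, 4` of the residual case F-D+2 of S3691 (helper898)

`coreX`: a group `G` acting on a space `U` of dimension `m` or `2 m` over the field with `q = 2 ^ f ∈ {2, 4}` elements such that elements of odd
prime order have fixed spaces of dimension `< m`, the odd Sylow subgroups are cyclic, `|G|` divides `q^(2m-2)(q^m-1)(q^(m-1)-1)`, is divisible by
the primitive primes for the exponents `m` and `m - 1`, and `|G|_2` is large: impossible.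
-/

set_option autoImplicit false

open Subgroup Cfsg Module
open Cfsg.Agent.H997.Rg

namespace Cfsg.Agent.H898.D2

universe v

/-- `q = 2`, `m ≥ 8` or `q = 4`, `m ≥ 6` -/
structure Nm (f m : ℕ) : Prop where
  hf : f = 1 ∨ f = 2
  h1 : f = 1 → 8 ≤ m
  h2 : f = 2 → 6 ≤ m

namespace Nm

variable {f m : ℕ}

theorem m6 (h : Nm f m) : 6 ≤ m := by
  rcases h.hf with hf | hf
  · have := h.h1 hf; omega
  · exact h.h2 hf

theorem f0 (h : Nm f m) : 0 < f := by
  rcases h.hf with hf | hf <;> omega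

theorem vf (h : Nm f m) : (4 * f).factorization 2 ≤ f + 1 := by
  by_contra hcon
  push Not at hcon
  have h1 := (Nat.prime_two.pow_dvd_iff_le_factorization (n := 4 * f) (by have := h.f0; omega)).2 hcon
  rcases h.hf with rfl | rfl <;> norm_num at h1

theorem ex_r (h : Nm f m) : ∃ r : ℕ, r.Prime ∧ orderOf ((2 : ℕ) : ZMod r) = f * m := by
  have hm := h.m6
  apply Cfsg.Agent.Lib.Zsigmondy.exists_prime_orderOf le_rfl
  · rcases h.hf with rfl | rfl <;> omega
  · rcases h.hf with rfl | rfl <;> omega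
  · rintro ⟨_, h6⟩
    rcases h.hf with rfl | rfl
    · have := h.h1 rfl; omega
    · omega

theorem ex_r' (h : Nm f m) : ∃ r : ℕ, r.Prime ∧ orderOf ((2 : ℕ) : ZMod r) = f * (m - 1) := by
  have hm := h.m6
  apply Cfsg.Agent.Lib.Zsigmondy.exists_prime_orderOf le_rfl
  · rcases h.hf with rfl | rfl <;> omega
  · rcases h.hf with rfl | rfl <;> omega
  · rintro ⟨_, h6⟩
    rcases h.hf with rfl | rfl
    · have := h.h1 rfl; omega
    · omega

theorem prod_lt (h : Nm f m) : (2 ^ (f * m) - 1) * (2 ^ (f * (m - 1)) - 1) < 2 ^ (f * (2 * m - 1)) := by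
  have hm := h.m6
  have e : f * (2 * m - 1) = f * m + f * (m - 1) := by
    rw [← Nat.mul_add]; congr 1; omega
  rw [e, pow_add]
  have h1 : 1 ≤ 2 ^ (f * m) := Nat.one_le_two_pow
  have h2 : 1 ≤ 2 ^ (f * (m - 1)) := Nat.one_le_two_pow
  exact Nat.mul_lt_mul_of_lt_of_le (by omega) (by omega) (by omega)

theorem prod_pos (h : Nm f m) : 0 < (2 ^ (f * m) - 1) * (2 ^ (f * (m - 1)) - 1) := by
  have hm := h.m6
  have hf := h.f0
  have h1 : 1 < 2 ^ (f * m) := Nat.one_lt_two_pow (Nat.mul_ne_zero (by omega) (by omega))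
  have h2 : 1 < 2 ^ (f * (m - 1)) := Nat.one_lt_two_pow (Nat.mul_ne_zero (by omega) (by omega))
  exact Nat.mul_pos (by omega) (by omega)

theorem le_of_dvd (h : Nm f m) {k x : ℕ} (hx : Nat.Coprime x 2) (hd : x ∣ 2 ^ k * (2 ^ (f * m) - 1) * (2 ^ (f * (m - 1)) - 1)) :
    x < 2 ^ (f * (2 * m - 1)) := by
  rw [mul_assoc] at hd
  have h1 : x ∣ (2 ^ (f * m) - 1) * (2 ^ (f * (m - 1)) - 1) :=
    Nat.Coprime.dvd_of_dvd_mul_left (Nat.Coprime.pow_right k hx) hd
  exact lt_of_le_of_lt (Nat.le_of_dvd h.prod_pos h1) h.prod_lt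

theorem cop_b {b : ℕ} (hb : b ≠ 0) : Nat.Coprime ((2 ^ b) ^ 2 - 1) 2 := by
  rw [← pow_mul]
  exact (coprime_pow_sub_one Nat.prime_two (by omega)).symm

theorem cop_s {b : ℕ} (hb : b ≠ 0) : Nat.Coprime (((2 ^ b) ^ 2 + 1) * (2 ^ b - 1)) 2 := by
  rw [Nat.coprime_comm, Nat.Prime.coprime_iff_not_dvd Nat.prime_two]
  intro h2
  have he : 2 ∣ 2 ^ b := dvd_pow_self 2 hb
  have h1 : 1 ≤ 2 ^ b := Nat.one_le_two_pow
  rcases (Nat.Prime.dvd_mul Nat.prime_two).1 h2 with h3 | h3
  · have h4 : 2 ∣ (2 ^ b) ^ 2 := dvd_pow he two_ne_zero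
    omega
  · omega

theorem bd_b (h : Nm f m) {b k : ℕ} (hb : b ≠ 0)
    (hd : (2 ^ b) ^ 2 - 1 ∣ 2 ^ k * (2 ^ (f * m) - 1) * (2 ^ (f * (m - 1)) - 1)) : 2 * b ≤ f * (2 * m - 1) := by
  have h1 := h.le_of_dvd (cop_b hb) hd
  have h2 : 2 ^ (2 * b) ≤ 2 ^ (f * (2 * m - 1)) := by
    rw [mul_comm 2 b, pow_mul]; omega
  exact (Nat.pow_le_pow_iff_right (by norm_num)).1 h2

theorem bd_s (h : Nm f m) {b k : ℕ} (hb : b ≠ 0)
    (hd : ((2 ^ b) ^ 2 + 1) * (2 ^ b - 1) ∣ 2 ^ k * (2 ^ (f * m) - 1) * (2 ^ (f * (m - 1)) - 1)) :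
    3 * b ≤ f * (2 * m - 1) := by
  have h1 := h.le_of_dvd (cop_s hb) hd
  obtain ⟨n, rfl⟩ : ∃ n, b = n + 1 := ⟨b - 1, by omega⟩
  have h2 : 2 ^ n ≤ 2 ^ (n + 1) - 1 := by
    have := Nat.one_le_two_pow (n := n)
    rw [pow_succ]; omega
  have h3 : 2 ^ (3 * n + 2) ≤ ((2 ^ (n + 1)) ^ 2 + 1) * (2 ^ (n + 1) - 1) := by
    calc 2 ^ (3 * n + 2) = (2 ^ (n + 1)) ^ 2 * 2 ^ n := by ring
      _ ≤ _ := Nat.mul_le_mul (by omega) h2
  have h4 := (Nat.pow_lt_pow_iff_right (by norm_num)).1 (lt_of_le_of_lt h3 h1)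
  omega

end Nm

theorem ord_of_suz {r b : ℕ} (h : r ∣ ((2 ^ b) ^ 2 + 1) * (2 ^ b - 1)) : orderOf ((2 : ℕ) : ZMod r) ∣ 4 * b := by
  have h0 : (2 ^ b) ^ 2 - 1 = (2 ^ b + 1) * (2 ^ b - 1) := by
    have := Nat.sq_sub_sq (2 ^ b) 1
    rwa [one_pow] at this
  have h0' : 2 ^ (4 * b) - 1 = ((2 ^ b) ^ 2 + 1) * ((2 ^ b) ^ 2 - 1) := by
    have := Nat.sq_sub_sq ((2 ^ b) ^ 2) 1
    rw [one_pow] at this
    rw [show 4 * b = b * 2 * 2 by ring, pow_mul, pow_mul, this]
  apply orderOf_dvd_of_dvd Nat.prime_two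
  rw [h0', h0]
  refine h.trans ?_
  exact ⟨2 ^ b + 1, by ring⟩

/-- the numbers for `L₂(l)` -/
theorem num_l {f m l r r' : ℕ} (hn : Nm f m) (hr : r.Prime) (ho : orderOf ((2 : ℕ) : ZMod r) = f * m) (hr' : r'.Prime)
    (ho' : orderOf ((2 : ℕ) : ZMod r') = f * (m - 1)) (hl : l.Prime) (h5 : 5 ≤ l) (hlm : l ≤ 4 * m + 1)
    (hrl : r ∣ l * (l ^ 2 - 1)) (hrl' : r' ∣ l * (l ^ 2 - 1))
    (hb : 2 ^ (f * (2 * m - 2)) ≤ 2 ^ (f * m) * (2 * (l + 1)) * (4 * f)) : False := by
  have hm := hn.m6
  have hf0 := hn.f0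
  have hr2 : r ≠ 2 := ne_of_orderOf Nat.prime_two ho (by positivity)
  have hr2' : r' ≠ 2 := ne_of_orderOf Nat.prime_two ho' (Nat.mul_ne_zero hf0.ne' (by omega))
  have hlt := lt_of_orderOf hr hr2 Nat.prime_two ho
  have hlt' := lt_of_orderOf hr' hr2' Nat.prime_two ho'
  have hodd : Odd l := hl.odd_of_ne_two (by omega)
  have hfac : l ^ 2 - 1 = (l - 1) * (l + 1) := by
    have := Nat.sq_sub_sq l 1
    rw [one_pow] at this
    rw [this, mul_comm]
  have hle : ∀ s : ℕ, s.Prime → s ≠ 2 → s ∣ l * (l ^ 2 - 1) → s ≤ l := by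
    intro s hs hs2 hd
    rw [hfac] at hd
    rcases (Nat.Prime.dvd_mul hs).1 hd with h | h
    · exact Nat.le_of_dvd (by omega) h
    rcases (Nat.Prime.dvd_mul hs).1 h with h | h
    · exact (Nat.le_of_dvd (by omega) h).trans (by omega)
    · have h8 : 2 ∣ l + 1 := by
        obtain ⟨k, hk⟩ := hodd
        exact ⟨k + 1, by omega⟩
      have h9 : 2 * s ∣ l + 1 := by
        apply Nat.Coprime.mul_dvd_of_dvd_of_dvd _ h8 h
        exact ((Nat.coprime_primes Nat.prime_two hs).2 hs2.symm)
      have := Nat.le_of_dvd (by omega) h9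
      omega
  have hrle := hle r hr hr2 hrl
  have hrle' := hle r' hr' hr2' hrl'
  have hbig : 2 ^ (f * (m - 2)) ≤ 2 * (l + 1) * (4 * f) := by
    have e : f * (2 * m - 2) = f * m + f * (m - 2) := by
      rw [← Nat.mul_add]; congr 1; omega
    rw [e, pow_add, mul_assoc] at hb
    exact Nat.le_of_mul_le_mul_left hb (by positivity)
  have hdv : r ∣ 2 ^ (f * m) - 1 := by
    have := (Cfsg.Agent.Lib.Zsigmondy.dvd_pow_sub_one_iff (a := 2) (r := r) (by norm_num) (m := f * m)).2 (by rw [ho])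
    exact this
  have hdv' : r' ∣ 2 ^ (f * (m - 1)) - 1 := by
    have := (Cfsg.Agent.Lib.Zsigmondy.dvd_pow_sub_one_iff (a := 2) (r := r') (by norm_num) (m := f * (m - 1))).2 (by rw [ho'])
    exact this
  rcases hn.hf with rfl | rfl
  · have h8 := hn.h1 rfl
    rw [one_mul] at hbig hlt hlt' hdv hdv'
    have h10 : m ≤ 10 := by
      by_contra hcon
      push Not at hcon
      have key : ∀ n : ℕ, 32 * (n + 11) + 16 < 2 ^ (n + 9) := by
        intro n
        induction n with
        | zero => norm_num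
        | succ n ih =>
          have e : 2 ^ (n + 1 + 9) = 2 * 2 ^ (n + 9) := by ring
          omega
      have := key (m - 11)
      have e1 : m - 11 + 11 = m := by omega
      have e2 : m - 11 + 9 = m - 2 := by omega
      rw [e1, e2] at this
      omega
    have h3 : m = 8 ∨ m = 9 ∨ m = 10 := by omega
    rcases h3 with rfl | rfl | rfl
    · have h7 : r' ≤ 33 := by omega
      norm_num at hdv' hlt'
      interval_cases r' <;> omega
    · have h7 : r ≤ 37 := by omega
      norm_num at hdv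
      interval_cases r <;> omega
    · have h7 : r' ≤ 41 := by omega
      norm_num at hdv' hlt'
      interval_cases r' <;> omega
  · have h6 := hn.h2 rfl
    have h7 : m ≤ 6 := by
      by_contra hcon
      push Not at hcon
      have key : ∀ n : ℕ, 64 * (n + 7) + 32 < 2 ^ (2 * (n + 5)) := by
        intro n
        induction n with
        | zero => norm_num
        | succ n ih =>
          have e : 2 ^ (2 * (n + 1 + 5)) = 4 * 2 ^ (2 * (n + 5)) := by ring
          omega
      have := key (m - 7)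
      have e1 : m - 7 + 7 = m := by omega
      have e2 : m - 7 + 5 = m - 2 := by omega
      rw [e1, e2] at this
      omega
    have h3 : m = 6 := by omega
    subst h3
    norm_num at hdv hdv' hlt hlt'
    have hr13 : r = 13 := by
      have h7 : r ≤ 25 := by omega
      interval_cases r <;> first | rfl | (exfalso; omega) | (exfalso; revert hr; norm_num)
    have hr11 : r' = 11 := by
      have h7 : r' ≤ 25 := by omega
      interval_cases r' <;> first | rfl | (exfalso; omega)
    subst hr13 hr11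
    have h7 : l ≤ 25 := by omega
    interval_cases l <;> first | (exfalso; revert hl; norm_num; done) | (exfalso; revert hrl; norm_num; done) | (exfalso; revert hrl'; norm_num)

/-- an element of order `r_m` has no fixed vectors and its invariant subspaces have dimension divisible by `m` -/
theorem zdata {F U G : Type*} [Field F] [Finite F] [AddCommGroup U] [Module F U] [FiniteDimensional F U]
    [Group G] {ρ : G →* Module.End F U} {f m r : ℕ} (hf0 : 0 < f) (hm0 : 0 < m) (hF : Nat.card F = 2 ^ f)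
    (hd : m ∣ finrank F U) (hr : r.Prime) (ho : orderOf ((2 : ℕ) : ZMod r) = f * m) {z : G} (hz : orderOf z = r)
    (hlt : finrank F (fx ρ z) < m) :
    (∀ v, ρ z v = v → v = 0) ∧ ∀ W : Submodule F U, (∀ w ∈ W, ρ z w ∈ W) → m ∣ finrank F W := by
  have hr2 : r ≠ 2 := ne_of_orderOf Nat.prime_two ho (by positivity)
  have hoF : orderOf ((Nat.card F : ℕ) : ZMod r) = m := by rw [hF]; exact order_card hf0 ho
  have hnF : ¬ r ∣ Nat.card F := by
    intro h0
    rw [hF] at h0
    exact hr2 ((Nat.prime_dvd_prime_iff_eq hr Nat.prime_two).1 (hr.dvd_of_dvd_pow h0))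
  have hpow : (ρ z) ^ r = 1 := by
    rw [← map_pow, ← hz, pow_orderOf_eq_one, map_one]
  have hz0 : ∀ v, ρ z v = v → v = 0 := by
    have h1 := lin_dvd hr hnF hpow
    rw [hoF] at h1
    have h2 : m ∣ finrank F (fxl (ρ z)) := (Nat.dvd_sub_iff_right (Submodule.finrank_le _) hd).1 h1
    have h3 : finrank F (fxl (ρ z)) = 0 := Nat.eq_zero_of_dvd_of_lt h2 hlt
    intro v hv
    have h4 : v ∈ fxl (ρ z) := mem_fxl.2 hv
    rw [Submodule.finrank_eq_zero.1 h3] at h4
    exact (Submodule.mem_bot F).1 h4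
  refine ⟨hz0, fun W hW => ?_⟩
  have h1 := lin_dvd_sub hr hnF hpow W hW fun w _ hw => hz0 w hw
  rwa [hoF] at h1

/-- the 2-part of the centralizer -/
theorem fac_cent {G : Type*} [Group G] [Finite G] {z : G} {n : ℕ}
    (h : ∀ P : Subgroup G, IsPGroup 2 P → (∀ g ∈ P, Commute g z) → Nat.card P ≤ 2 ^ n) :
    (Nat.card (centralizer ({z} : Set G))).factorization 2 ≤ n := by
  have := Fact.mk Nat.prime_two
  obtain ⟨P⟩ : Nonempty (Sylow 2 (centralizer ({z} : Set G))) := inferInstance
  have h1 := h ((P : Subgroup (centralizer ({z} : Set G))).map (centralizer ({z} : Set G)).subtype) (P.2.map _) (by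
    rintro _ ⟨x, _, rfl⟩
    exact mem_centralizer_singleton_iff.1 x.2)
  rw [Subgroup.card_map_of_injective (Subgroup.subtype_injective _), Sylow.card_eq_multiplicity] at h1
  exact (Nat.pow_le_pow_iff_right (by norm_num)).1 h1

/-- **the core** -/
theorem coreX (hJ : OutJ1.{v}) {F U : Type*} [Field F] [Finite F] [AddCommGroup U] [Module F U] [FiniteDimensional F U]
    {G : Type v} [Group G] [Finite G] (ρ : G →* Module.End F U) {f m c a : ℕ} (hn : Nm f m) (hF : Nat.card F = 2 ^ f)
    (hd : finrank F U = m ∨ finrank F U = 2 * m)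
    (hfix : ∀ g : G, (orderOf g).Prime → orderOf g ≠ 2 → finrank F (fx ρ g) < m)
    (hcyc : ∀ s : ℕ, s.Prime → s ≠ 2 → ∀ P : Sylow s G, IsCyclic P)
    (hdvd : Nat.card G ∣ 2 ^ (f * (2 * m - 2)) * (2 ^ (f * m) - 1) * (2 ^ (f * (m - 1)) - 1))
    (hrd : ∀ r : ℕ, r.Prime → (orderOf ((2 : ℕ) : ZMod r) = f * m ∨ orderOf ((2 : ℕ) : ZMod r) = f * (m - 1)) →
      r ∣ Nat.card G)
    (hO : ∀ (r : ℕ) (z : G), r.Prime → orderOf ((2 : ℕ) : ZMod r) = f * m → orderOf z = r → ∀ a ∈ pCore 2 G, Commute z a)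
    (hC : ∀ (r : ℕ) (z : G), r.Prime → orderOf ((2 : ℕ) : ZMod r) = f * m → orderOf z = r →
      (Nat.card (centralizer ({z} : Set G))).factorization 2 ≤ c)
    (hv : f * (2 * m - 2) ≤ (Nat.card G).factorization 2 + a + (4 * f).factorization 2) (hac : a + c ≤ f * m) : False := by
  classical
  have hm := hn.m6
  have hf0 := hn.f0
  have hG0 : Nat.card G ≠ 0 := Nat.card_pos.ne'
  have hntU : Nontrivial U := by
    apply Module.nontrivial_of_finrank_pos (R := F)
    rcases hd with h | h <;> omega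
  have hchar : CharP F 2 := by
    have := Fintype.ofFinite F
    have := Fact.mk Nat.prime_two
    exact charP_of_card_eq_prime_pow (f := f) (by rw [← Nat.card_eq_fintype_card, hF])
  have hcast : ∀ s : ℕ, s.Prime → s ≠ 2 → (s : F) ≠ 0 := by
    intro s hs hs2 h0
    rw [CharP.cast_eq_zero_iff F 2] at h0
    exact hs2 ((Nat.prime_dvd_prime_iff_eq Nat.prime_two hs).1 h0).symm
  have hnF : ∀ s : ℕ, s.Prime → s ≠ 2 → ¬ s ∣ Nat.card F := by
    intro s hs hs2 h0
    rw [hF] at h0
    exact hs2 ((Nat.prime_dvd_prime_iff_eq hs Nat.prime_two).1 (hs.dvd_of_dvd_pow h0))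
  have hpow1 : ∀ (g : G) (s : ℕ), orderOf g = s → (ρ g) ^ s = 1 := by
    intro g s hg
    rw [← map_pow, ← hg, pow_orderOf_eq_one, map_one]
  obtain ⟨r, hr, ho⟩ := hn.ex_r
  have hr2 : r ≠ 2 := ne_of_orderOf Nat.prime_two ho (by positivity)
  have hlt := lt_of_orderOf hr hr2 Nat.prime_two ho
  have := Fact.mk hr
  obtain ⟨z, hz⟩ := exists_prime_orderOf_dvd_card' (G := G) r (hrd r hr (Or.inl ho))
  have hoF : orderOf ((Nat.card F : ℕ) : ZMod r) = m := by rw [hF]; exact order_card hf0 ho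
  have hmU : m ∣ finrank F U := by
    rcases hd with h | h
    · rw [h]
    · rw [h]; exact dvd_mul_left m 2
  have hz0 : ∀ v, ρ z v = v → v = 0 := by
    have h1 := lin_dvd hr (hnF r hr hr2) (hpow1 z r hz)
    rw [hoF] at h1
    have h2 : m ∣ finrank F (fxl (ρ z)) := (Nat.dvd_sub_iff_right (Submodule.finrank_le _) hmU).1 h1
    have h3 : finrank F (fxl (ρ z)) = 0 := Nat.eq_zero_of_dvd_of_lt h2 (hfix z (by rw [hz]; exact hr) (by rw [hz]; exact hr2))
    intro v hv
    have h4 : v ∈ fxl (ρ z) := mem_fxl.2 hv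
    rw [Submodule.finrank_eq_zero.1 h3] at h4
    exact (Submodule.mem_bot F).1 h4
  -- small z-invariant subspaces are zero
  have hsm : ∀ W : Submodule F U, (∀ w ∈ W, ρ z w ∈ W) → finrank F W < m → W = ⊥ := by
    intro W hW hlt
    rw [eq_bot_iff]
    intro w hw
    rw [Submodule.mem_bot]
    exact hz0 w (triv_of_lt hr (hnF r hr hr2) (hpow1 z r hz) W hW (by rw [hoF]; exact hlt) w hw)
  -- elements of the second kind do not commute with z
  have hnc : ∀ (r' : ℕ) (y : G), r'.Prime → orderOf ((2 : ℕ) : ZMod r') = f * (m - 1) → orderOf y = r' → ¬ Commute y z := by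
    intro r' y hr' ho' hy hc
    have hr2' : r' ≠ 2 := ne_of_orderOf Nat.prime_two ho' (Nat.mul_ne_zero hf0.ne' (by omega))
    have hoF' : orderOf ((Nat.card F : ℕ) : ZMod r') = m - 1 := by rw [hF]; exact order_card hf0 ho'
    have h1 : fxl (ρ y) = ⊥ := by
      apply hsm
      · intro w hw
        rw [mem_fxl] at hw ⊢
        rw [← Module.End.mul_apply, ← map_mul, hc.eq, map_mul, Module.End.mul_apply, hw]
      · exact hfix y (by rw [hy]; exact hr') (by rw [hy]; exact hr2')
    have h2 := lin_dvd hr' (hnF r' hr' hr2') (hpow1 y r' hy)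
    rw [hoF', h1, finrank_bot, Nat.sub_zero] at h2
    have h3 : m - 1 ∣ 2 * m := by
      rcases hd with h | h
      · rw [h] at h2; exact h2.mul_left 2
      · rwa [h] at h2
    have h4 : m - 1 ∣ 2 := by
      have e : 2 * m = 2 * (m - 1) + 2 := by omega
      rw [e] at h3
      exact (Nat.dvd_add_right (dvd_mul_left _ 2)).1 h3
    have := Nat.le_of_dvd two_pos h4
    omega
  -- the Fitting subgroup
  have hfit : z ∈ centralizer (fittingSubgroup G : Set G) := by
    refine fit_of hr hz hcyc (hO r z hr ho hz) ?_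
    intro s x hs hs2 hx hn'
    have h1 : fx ρ x = ⊥ := by
      apply hsm
      · intro w hw
        rw [mem_fxl] at hw ⊢
        have h2 : z⁻¹ * x * z ∈ zpowers x := by
          have h3 := hn' (r - 1)
          have h4 : z ^ (r - 1) = z⁻¹ := by
            apply eq_inv_of_mul_eq_one_left
            rw [← pow_succ, Nat.sub_add_cancel hr.one_lt.le, ← hz, pow_orderOf_eq_one]
          rwa [h4, inv_inv] at h3
        have h5 := fix_zpowers hw h2
        have h6 : ρ x (ρ z w) = ρ z (ρ (z⁻¹ * x * z) w) := by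
          rw [← Module.End.mul_apply, ← Module.End.mul_apply, ← map_mul, ← map_mul]
          congr 2
          group
        rw [h6, h5]
      · exact hfix x (by rw [hx]; exact hs) (by rw [hx]; exact hs2)
    refine commute_of_free (ρ := ρ) Nat.prime_two hs hs2 hx hr hz ?_ hz0 hn'
    intro v hv
    have h4 : v ∈ fx ρ x := mem_fxl.2 hv
    rw [h1] at h4
    exact (Submodule.mem_bot F).1 h4
  have hK : Cyc 2 G := ⟨fun s hs hs2 _ P => hcyc s hs hs2 P, Or.inl rfl⟩
  have hout := hout_of' hJ Nat.prime_two hr hr2 hK (by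
    intro b hb _ h2 hrb
    have h3 : (2 ^ b) ^ 2 - 1 ∣ Nat.card G / 2 ^ (Nat.card G).factorization 2 :=
      Nat.Coprime.dvd_of_dvd_mul_left (Nm.cop_b hb) h2
    have h4 := hn.bd_b hb ((h3.trans (Nat.div_dvd_of_dvd (Nat.ordProj_dvd _ _))).trans hdvd)
    have h5 := Nat.le_of_dvd (Nat.pos_of_ne_zero hb) hrb
    have h6 : f * (2 * m - 1) ≤ 2 * (f * m) := by
      rw [← Nat.mul_assoc, mul_comm 2 f, Nat.mul_assoc]
      exact Nat.mul_le_mul_left f (by omega)
    omega) (by
    intro _ b hb h2 hrb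
    have hb0 : b ≠ 0 := by rintro rfl; exact absurd hb (by decide)
    have h4 := hn.bd_s hb0 (h2.trans hdvd)
    have h5 := Nat.le_of_dvd (Nat.pos_of_ne_zero hb0) hrb
    have h6 : f * (2 * m - 1) ≤ 2 * (f * m) := by
      rw [← Nat.mul_assoc, mul_comm 2 f, Nat.mul_assoc]
      exact Nat.mul_le_mul_left f (by omega)
    omega)
  have hvf := hn.vf
  have hfm : f * (2 * m - 2) = f * m + f * (m - 2) := by
    rw [← Nat.mul_add]; congr 1; omega
  have hczz : ∀ r' : ℕ, r'.Prime → orderOf ((2 : ℕ) : ZMod r') = f * (m - 1) →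
      ¬ r' ∣ Nat.card (centralizer ({z} : Set G)) := by
    intro r' hr' ho' hdr
    have := Fact.mk hr'
    obtain ⟨y, hy⟩ := exists_prime_orderOf_dvd_card' (G := centralizer ({z} : Set G)) r' hdr
    refine hnc r' (y : G) hr' ho' (by rw [Subgroup.orderOf_coe]; exact hy) ?_
    exact mem_centralizer_singleton_iff.1 y.2
  obtain ⟨r', hr', ho'⟩ := hn.ex_r'
  have hr2' : r' ≠ 2 := ne_of_orderOf Nat.prime_two ho' (Nat.mul_ne_zero hf0.ne' (by omega))
  have hlt' := lt_of_orderOf hr' hr2' Nat.prime_two ho'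
  have hrG' := hrd r' hr' (Or.inr ho')
  rcases coreS Nat.prime_two hr hr2 hr2 hK z hz hfit hout with h | ⟨L, hL, hLn, hzL, hzC, hS, hd1, hd2⟩
  · -- ⟨z⟩ normal
    have h1 := card_nc z
    rw [Subgroup.normalizer_eq_top_iff.2 h, Subgroup.card_top] at h1
    have h2 : r' ∣ nc z := by
      rw [h1] at hrG'
      exact ((Nat.Prime.dvd_mul hr').1 hrG').resolve_left (hczz r' hr' ho')
    have h3 : nc z ≤ 2 * m := by
      have h4 : nc z ≤ finrank F U := by
        refine nc_le (ρ := ρ) hr (hcast r hr hr2) hz ?_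
        intro h5
        obtain ⟨v, hv⟩ := exists_ne (0 : U)
        exact hv (hz0 v (by rw [h5]; rfl))
      rcases hd with h | h <;> omega
    have h4 : (nc z).factorization 2 ≤ 1 := by
      by_contra hcon
      push Not at hcon
      have h5 := (Nat.prime_two.pow_dvd_iff_le_factorization (nc_pos z).ne').2 hcon
      have h6 : 2 ^ (1 + 1) * r' ∣ nc z := by
        apply Nat.Coprime.mul_dvd_of_dvd_of_dvd _ h5 h2
        exact Nat.Coprime.pow_left _ ((Nat.coprime_primes Nat.prime_two hr').2 hr2'.symm)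
      have h7 := Nat.le_of_dvd (nc_pos z) h6
      have h8 : m - 1 ≤ f * (m - 1) := Nat.le_mul_of_pos_left _ hf0
      norm_num at h7
      omega
    have h5 := hC r z hr ho hz
    rw [h1, Nat.factorization_mul Nat.card_pos.ne' (nc_pos z).ne', Finsupp.add_apply, hfm] at hv
    have h6 : f * (m - 2) ≤ f + 2 := by omega
    rcases hn.hf with rfl | rfl <;> omega
  · -- components
    have hsimple : IsSimpleGroup (↥L ⧸ center ↥L) := hL.2.2
    have hnc' := not_comm_of (quasisimple_quot_not_solvable hL.2)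
    have hZ := center_bot hnc'
    have hrS := dvd_card_quot hr hz hzL hzC
    have hdS : Nat.card (↥L ⧸ center ↥L) ∣ Nat.card G :=
      (Subgroup.card_quotient_dvd_card _).trans (Subgroup.card_subgroup_dvd_card L)
    have hS0 : Nat.card (↥L ⧸ center ↥L) ≠ 0 := Nat.card_pos.ne'
    have hA0 : Nat.card (MulAut (↥L ⧸ center ↥L)) ≠ 0 := by
      rw [card_mulAut hZ]
      exact mul_ne_zero hS0 Nat.card_pos.ne'
    have hCL : centralizer (L : Set G) ≤ centralizer ({z} : Set G) := by
      apply Subgroup.centralizer_le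
      intro x hx
      rw [Set.mem_singleton_iff.1 hx]
      exact hzL
    have hrA : r' ∣ Nat.card (MulAut (↥L ⧸ center ↥L)) := by
      refine ((Nat.Prime.dvd_mul hr').1 (hrG'.trans hd1)).resolve_left fun h => ?_
      exact hczz r' hr' ho' (h.trans (Subgroup.card_dvd_of_le hCL))
    have hv2 : (Nat.card G).factorization 2 ≤ c + (Nat.card (MulAut (↥L ⧸ center ↥L))).factorization 2 := by
      have h1 := fac_le (p := 2) hd1 (mul_ne_zero Nat.card_pos.ne' hA0)
      rw [Nat.factorization_mul Nat.card_pos.ne' hA0, Finsupp.add_apply] at h1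
      have h2 := fac_le (p := 2) (Subgroup.card_dvd_of_le hCL) Nat.card_pos.ne'
      have h3 := hC r z hr ho hz
      omega
    have hdivs : ∀ {s b : ℕ}, s.Prime → s ≠ 2 → s ∣ 2 ^ b * ((2 ^ b) ^ 2 - 1) → s ∣ (2 ^ b) ^ 2 - 1 := by
      intro s b hs hs2 h
      refine ((Nat.Prime.dvd_mul hs).1 h).resolve_left fun h8 => ?_
      exact hs2 ((Nat.prime_dvd_prime_iff_eq hs Nat.prime_two).1 (hs.dvd_of_dvd_pow h8))
    have hordb : ∀ {s b : ℕ}, s ∣ (2 ^ b) ^ 2 - 1 → orderOf ((2 : ℕ) : ZMod s) ∣ b * 2 := by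
      intro s b h
      rw [← pow_mul] at h
      exact orderOf_dvd_of_dvd Nat.prime_two h
    rcases hS with h | h | h | h | h
    · -- L₂(2^b)
      obtain ⟨E, iE, iE', b, hE, h4, ⟨e⟩⟩ := h
      obtain ⟨h5, h6, _⟩ := psl2_data hZ Nat.prime_two hE h4 e
      have hb : b ≠ 0 := by rintro rfl; rw [pow_zero] at h4; omega
      have hg : Nat.gcd 2 (2 ^ b - 1) = 1 := coprime_pow_sub_one Nat.prime_two hb
      rw [hg, mul_one] at h6
      have h7 : 2 * b ≤ f * (2 * m - 1) := by
        apply hn.bd_b (k := f * (2 * m - 2)) hb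
        refine Dvd.dvd.trans ?_ (hdS.trans hdvd)
        rw [h6]; exact dvd_mul_left _ _
      have h8 : f * m ∣ b * 2 := by
        rw [← ho]; exact hordb (hdivs hr hr2 (by rw [← h6]; exact hrS))
      have h9 : b * 2 = f * m := by
        obtain ⟨k, hk⟩ := h8
        have h10 : f * (2 * m - 1) < 2 * (f * m) := by
          rw [← Nat.mul_assoc, mul_comm 2 f, Nat.mul_assoc]
          exact Nat.mul_lt_mul_of_pos_left (by omega) hf0
        have hk2 : k = 1 := by
          rcases k with _ | _ | k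
          · omega
          · rfl
          · exfalso
            have : f * m * 2 ≤ f * m * (k + 1 + 1) := Nat.mul_le_mul_left _ (by omega)
            omega
        rw [hk, hk2, mul_one]
      rw [h5] at hrA
      rcases (Nat.Prime.dvd_mul hr').1 hrA with h | h
      · have h10 := Nat.le_of_dvd (Nat.pos_of_ne_zero hb) h
        rcases hn.hf with rfl | rfl <;> omega
      · have h10 := hordb (hdivs hr' hr2' h)
        rw [ho', h9] at h10
        have h11 : m - 1 ∣ m := Nat.dvd_of_mul_dvd_mul_left hf0 h10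
        have h12 : m - 1 ∣ 1 := by
          have e1 : m = (m - 1) + 1 := by omega
          rw [e1] at h11
          simpa using h11
        have := Nat.le_of_dvd one_pos h12
        omega
    · -- L₂(l)
      obtain ⟨E, iE, iE', hpr, hne, h5, ⟨e⟩⟩ := h
      set l := Fintype.card E with hl
      obtain ⟨h7, h8, _⟩ := psl2_data hZ (l := l) (b := 1) hpr (by rw [pow_one]) (by rw [pow_one]; omega) e
      rw [pow_one] at h7 h8
      rw [one_mul] at h7
      have hfac : l ^ 2 - 1 = (l - 1) * (l + 1) := by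
        have := Nat.sq_sub_sq l 1
        rw [one_pow] at this
        rw [this, mul_comm]
      have hl0 : l ≠ 0 := by omega
      have hp1 : (l - 1) * (l + 1) ≠ 0 := mul_ne_zero (by omega) (by omega)
      have hlm : l ≤ 4 * m + 1 := by
        obtain ⟨u, w, i, hu, huv, hi⟩ := exists_split hpr (cyc_sub hpr (hcyc l hpr hne) L) hl.symm e
        have hu' : orderOf (u : G) = l := by rw [Subgroup.orderOf_coe]; exact hu
        have h9 : (w : G) * u * (w : G)⁻¹ = (u : G) ^ i := congrArg Subtype.val huv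
        have h10 := Nat.le_of_dvd (nc_pos _) (dvd_nc hu' h9)
        have h11 : nc (u : G) ≤ finrank F U := by
          refine nc_le (ρ := ρ) hpr (hcast l hpr hne) hu' ?_
          intro h12
          have h13 := hfix (u : G) (by rw [hu']; exact hpr) (by rw [hu']; exact hne)
          have h14 : fx ρ (u : G) = ⊤ := by
            rw [eq_top_iff]
            intro v _
            rw [mem_fxl, h12]; rfl
          rw [h14, finrank_top] at h13
          rcases hd with h | h <;> omega
        rcases hd with h | h <;> omega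
      obtain ⟨x, x', hxy, hx2, hx'⟩ := prod_bound (p := 2) Nat.prime_two (l := l) (by omega)
      have hl2 : l.factorization 2 = 0 := by
        apply Nat.factorization_eq_zero_of_not_dvd
        intro h
        exact hne ((Nat.prime_dvd_prime_iff_eq Nat.prime_two hpr).1 h).symm
      rw [h7, hfac, Nat.factorization_mul hl0 hp1, Finsupp.add_apply, hxy, hl2, zero_add] at hv2
      refine num_l hn hr ho hr' ho' hpr h5 hlm ?_ ?_ ?_
      · rw [← h8]; exact hrS.mul_right _
      · rw [← h7]; exact hrA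
      · have h9 : 2 ^ (4 * f).factorization 2 ≤ 4 * f := Nat.le_of_dvd (by omega) (Nat.ordProj_dvd _ _)
        have h10 : 2 ^ x ≤ 2 := Nat.le_of_dvd two_pos hx2
        calc 2 ^ (f * (2 * m - 2)) ≤ 2 ^ ((f * m) + (x + x') + (4 * f).factorization 2) :=
              Nat.pow_le_pow_right two_pos (by omega)
          _ = 2 ^ (f * m) * (2 ^ x * 2 ^ x') * 2 ^ (4 * f).factorization 2 := by rw [pow_add, pow_add, pow_add]
          _ ≤ _ := Nat.mul_le_mul (Nat.mul_le_mul le_rfl (Nat.mul_le_mul h10 hx')) h9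
    · -- Suzuki
      obtain ⟨_, h⟩ := h
      obtain ⟨b, hb, hb3, hc, hou⟩ := suz_data hZ h
      have hb0 : b ≠ 0 := by omega
      have hfacS : ∀ s : ℕ, s.Prime → s ≠ 2 → s ∣ Nat.card (↥L ⧸ center ↥L) → s ∣ ((2 ^ b) ^ 2 + 1) * (2 ^ b - 1) := by
        intro s hs hs2 hsd
        rw [hc, mul_assoc] at hsd
        refine ((Nat.Prime.dvd_mul hs).1 hsd).resolve_left ?_
        intro h8
        have h9 := hs.dvd_of_dvd_pow (hs.dvd_of_dvd_pow h8)
        exact hs2 ((Nat.prime_dvd_prime_iff_eq hs Nat.prime_two).1 h9)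
      have h7 : 3 * b ≤ f * (2 * m - 1) := by
        apply hn.bd_s (k := f * (2 * m - 2)) hb0
        refine Dvd.dvd.trans ?_ (hdS.trans hdvd)
        rw [hc]
        exact ⟨(2 ^ b) ^ 2, by ring⟩
      have h8 : f * m ∣ 4 * b := by
        rw [← ho]; exact ord_of_suz (hfacS r hr hr2 hrS)
      obtain ⟨k, hk⟩ := h8
      have hk3 : k = 1 ∨ k = 2 := by
        have h10 : f * (2 * m - 1) < 2 * (f * m) := by
          rw [← Nat.mul_assoc, mul_comm 2 f, Nat.mul_assoc]
          exact Nat.mul_lt_mul_of_pos_left (by omega) hf0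
        rcases k with _ | _ | _ | k
        · omega
        · exact Or.inl rfl
        · exact Or.inr rfl
        · exfalso
          have : f * m * 3 ≤ f * m * (k + 1 + 1 + 1) := Nat.mul_le_mul_left _ (by omega)
          omega
      rw [card_mulAut hZ, hou] at hrA
      rcases (Nat.Prime.dvd_mul hr').1 hrA with h | h
      · have h10 := ord_of_suz (hfacS r' hr' hr2' h)
        rw [ho', hk, mul_assoc] at h10
        have h11 : m - 1 ∣ m * k := Nat.dvd_of_mul_dvd_mul_left hf0 h10
        have h12 : m - 1 ∣ 2 := by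
          have h13 : m - 1 ∣ 2 * m := by
            rcases hk3 with rfl | rfl
            · rw [mul_one] at h11; exact h11.mul_left 2
            · rwa [mul_comm] at h11
          have e1 : 2 * m = 2 * (m - 1) + 2 := by omega
          rw [e1] at h13
          exact (Nat.dvd_add_right (dvd_mul_left _ 2)).1 h13
        have := Nat.le_of_dvd two_pos h12
        omega
      · have h10 := Nat.le_of_dvd (Nat.pos_of_ne_zero hb0) h
        rcases hn.hf with rfl | rfl <;> omega
    · -- J₁
      obtain ⟨_, h⟩ := h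
      have h1 : Nat.card (↥L ⧸ center ↥L) = 175560 := h.2
      have h2 : (175560 : ℕ).factorization 2 ≤ 3 := by
        by_contra hcon
        push Not at hcon
        have := (Nat.prime_two.pow_dvd_iff_le_factorization (n := 175560) (by norm_num)).2 hcon
        norm_num at this
      rw [card_mulAut hZ, hJ _ h, mul_one, h1] at hv2
      have h6 : f * (m - 2) ≤ f + 4 := by omega
      rcases hn.hf with rfl | rfl
      · have := hn.h1 rfl; omega
      · omega
    · exact absurd rfl h.1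

end Cfsg.Agent.H898.D2
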