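import Cfsg.Agent.H898.D2.Core
import Cfsg.Agent.H72.D2.Vs

/-!
# The case `q = 2, 4` of the residual case F-D+2 of S3691 (helper898)

`Cfsg.Agent.H386.Rg.D2.small_case` (piece 11.2 (a) of tools/plans/S3691.md)
-/

set_option autoImplicit false

open Subgroup Cfsg Module QuadraticMap
open Cfsg.Agent.H997.Rg Cfsg.Agent.H898.D2

namespace Cfsg.Agent.H386.Rg

universe u v

variable {F : Type u} {V : Type v} [Field F] [Finite F] [AddCommGroup V] [Module F V] [FiniteDimensional F V]
  {Q : QuadraticForm F V} {p f m : ℕ} {K : Subgroup (V ≃ₗ[F] V)}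

/-- the natural representation of `K` -/
def nrep (K : Subgroup (V ≃ₗ[F] V)) : K →* Module.End F V :=
  (LinearEquiv.automorphismGroup.toLinearMapMonoidHom (R := F) (M := V)).comp K.subtype

omit [Finite F] [FiniteDimensional F V] in
theorem nrep_apply (k : K) (v : V) : nrep K k v = (k : V ≃ₗ[F] V) v := rfl

omit [Finite F] [FiniteDimensional F V] in
theorem nrep_inj : Function.Injective (nrep K) := by
  intro a b h
  apply Subtype.ext
  ext v
  exact LinearMap.congr_fun h v

omit [Finite F] [FiniteDimensional F V] in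
theorem fx_nrep (k : K) : fx (nrep K) k = fixS (k : V ≃ₗ[F] V) := by
  ext v
  rw [mem_fxl, mem_fixS]
  rfl

theorem D2.nm (h : D2 Q p f m K) (hq : p ^ f = 2 ∨ p ^ f = 4) : p = 2 ∧ Nm f m := by
  have hf := h.hf
  have hp := h.hp
  have hm := h.hm
  have hd : p ∣ 2 ^ 2 := by
    have h1 : p ∣ p ^ f := dvd_pow_self p (by omega)
    rcases hq with hq | hq
    · rw [hq] at h1; exact h1.trans ⟨2, rfl⟩
    · rw [hq] at h1; exact h1
  have hp2 : p = 2 := (Nat.prime_dvd_prime_iff_eq hp Nat.prime_two).1 (hp.dvd_of_dvd_pow hd)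
  subst hp2
  refine ⟨rfl, ?_⟩
  have hs := h.size
  rcases hq with hq | hq
  · have hf1 : f = 1 := Nat.pow_right_injective le_rfl (show 2 ^ f = 2 ^ 1 by rw [hq])
    subst hf1
    refine ⟨Or.inl rfl, fun _ => ?_, fun h => absurd h (by norm_num)⟩
    by_contra hcon
    have := hs.2 (by omega)
    norm_num at this
  · have hf1 : f = 2 := Nat.pow_right_injective le_rfl (show 2 ^ f = 2 ^ 2 by rw [hq])
    subst hf1
    refine ⟨Or.inr rfl, fun h => absurd h (by norm_num), fun _ => ?_⟩
    by_contra hcon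
    have := hs.1 (by omega)
    norm_num at this

/-- the Sylow subgroups for odd primes are cyclic -/
theorem D2.cyc2 (h : D2 Q 2 f m K) (hn : Nm f m) (s : ℕ) (hs : s.Prime) (hs2 : s ≠ 2) [Finite K] (P : Sylow s K) :
    IsCyclic P := by
  have hFact := Fact.mk hs
  have hm := hn.m6
  have hf0 := hn.f0
  have hF := h.hF
  have hK0 : Nat.card K ≠ 0 := Nat.card_pos.ne'
  by_cases h5 : s = 5 ∧ f = 2 ∧ m = 6
  · obtain ⟨rfl, rfl, rfl⟩ := h5
    have h1 := h.card_dvd2 rfl
    have h2 : (Nat.card K).factorization 5 ≤ 1 := by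
      by_contra hcon
      push Not at hcon
      have h3 := (hs.pow_dvd_iff_le_factorization hK0).2 hcon
      have h4 := h3.trans h1
      norm_num at h4
    have h3 := P.card_eq_multiplicity
    have h4 : (Nat.card K).factorization 5 = 0 ∨ (Nat.card K).factorization 5 = 1 := by omega
    rcases h4 with h4 | h4
    · rw [h4, pow_zero] at h3
      have : Subsingleton P := (Nat.card_eq_one_iff_unique.1 h3).1
      infer_instance
    · rw [h4, pow_one] at h3
      exact isCyclic_of_prime_card h3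
  have hsF : (s : F) ≠ 0 := h.cast_ne hs hs2
  have hnF : ¬ s ∣ Nat.card F := by
    intro h0
    rw [hF] at h0
    exact hs2 ((Nat.prime_dvd_prime_iff_eq hs Nat.prime_two).1 (hs.dvd_of_dvd_pow h0))
  refine cyc_of hs hs2 ?_ P
  intro a b hab ha hb
  by_contra hba
  have hbs : b ^ s = 1 := by rw [← hb]; exact pow_orderOf_eq_one b
  have hord : ∀ t : ℕ, orderOf (a ^ t * b) = s := by
    intro t
    apply orderOf_eq_prime
    · rw [(hab.pow_left t).mul_pow, ← pow_mul, mul_comm t s, pow_mul, ← ha, pow_orderOf_eq_one, one_pow, one_mul, ha, hbs]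
    · intro h0
      apply hba
      have h2 : b = (a ^ t)⁻¹ := (inv_eq_of_mul_eq_one_right h0).symm
      rw [h2]
      exact inv_mem (pow_mem (Subgroup.mem_zpowers a) t)
  have hdim : ∀ k : K, orderOf k = s → finrank F (fx (nrep K) k) ≤ 2 := by
    intro k hk
    rw [fx_nrep]
    have hk' : orderOf (k : V ≃ₗ[F] V) = s := by rw [Subgroup.orderOf_coe]; exact hk
    exact h.fix_le_two k.2 (by rw [hk']; exact hs) (by rw [hk']; exact hs2)
  have h1 := dim_le_sum (ρ := nrep K) hs hsF ha hbs hab (hdim a ha) fun t _ => hdim _ (hord t)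
  rw [h.dim] at h1
  have h2 : m ≤ s + 1 := by omega
  -- the order of `q` modulo `s`
  have hle2 : orderOf ((Nat.card F : ℕ) : ZMod s) ≤ 2 := by
    by_contra hcon
    push Not at hcon
    have hbT : (nrep K b) ^ s = 1 := by rw [← map_pow, hbs, map_one]
    have hinv : ∀ c : K, Commute c b → ∀ w ∈ fx (nrep K) c, nrep K b w ∈ fx (nrep K) c := by
      intro c hc w hw
      rw [mem_fxl] at hw ⊢
      rw [← Module.End.mul_apply, ← map_mul, hc.eq, map_mul, Module.End.mul_apply, hw]
    have hle : ∀ c : K, Commute c b → orderOf c = s → fx (nrep K) c ≤ fx (nrep K) b := by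
      intro c hc hcs w hw
      rw [mem_fxl]
      exact triv_of_lt hs hnF hbT (fx (nrep K) c) (hinv c hc) (lt_of_le_of_lt (hdim c hcs) hcon) w hw
    have h3 := sum_fix (ρ := nrep K) hs hsF ha hbs hab
    have h4 : fx (nrep K) b = ⊤ := by
      rw [eq_top_iff, ← h3]
      refine sup_le (hle a hab ha) (Finset.sup_le fun t _ => hle _ ((hab.pow_left t).mul_left (Commute.refl b)) (hord t))
    have h5 := hdim b hb
    rw [h4, finrank_top, h.dim] at h5
    omega
  have hpos : 0 < orderOf ((Nat.card F : ℕ) : ZMod s) := by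
    rw [orderOf_pos_iff]
    have hq0 : ((Nat.card F : ℕ) : ZMod s) ≠ 0 := by
      rw [Ne, ZMod.natCast_eq_zero_iff]; exact hnF
    exact isOfFinOrder_iff_pow_eq_one.2 ⟨s - 1, by have := hs.two_le; omega, ZMod.pow_card_sub_one_eq_one hq0⟩
  have hsd : s ∣ (Nat.card F) ^ 2 - 1 := by
    have h3 : orderOf ((Nat.card F : ℕ) : ZMod s) ∣ 2 := by
      interval_cases (orderOf ((Nat.card F : ℕ) : ZMod s))
      · exact one_dvd 2
      · exact dvd_rfl
    exact (Cfsg.Agent.Lib.Zsigmondy.dvd_pow_sub_one_iff (a := Nat.card F) (r := s) Nat.card_pos (m := 2)).2 h3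
  rw [hF] at hsd
  rcases hn.hf with rfl | rfl
  · have h8 := hn.h1 rfl
    norm_num at hsd
    have := (Nat.prime_dvd_prime_iff_eq hs Nat.prime_three).1 hsd
    omega
  · have hsd' : s ∣ 3 * 5 := by norm_num at hsd ⊢; exact hsd
    rcases (Nat.Prime.dvd_mul hs).1 hsd' with h3 | h3
    · have := (Nat.prime_dvd_prime_iff_eq hs Nat.prime_three).1 h3
      omega
    · have h4 := (Nat.prime_dvd_prime_iff_eq hs Nat.prime_five).1 h3
      exact h5 ⟨h4, rfl, by omega⟩

/-- `O_2(K) = 1` -/
theorem D2.case_A (hJ : OutJ1.{v}) (h : D2 Q 2 f m K) (hn : Nm f m) [Finite K] (hO : pCore 2 K = ⊥) : False := by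
  have hm := hn.m6
  have hf0 := hn.f0
  have hntV : Nontrivial V := by
    apply Module.nontrivial_of_finrank_pos (R := F)
    rw [h.dim]; omega
  have h2F : 2 ∣ Nat.card F := by rw [h.hF]; exact dvd_pow_self 2 hf0.ne'
  have hfix : ∀ g : K, (orderOf g).Prime → orderOf g ≠ 2 → finrank F (fx (nrep K) g) < m := by
    intro g hg hg2
    rw [fx_nrep]
    have hk' : orderOf (g : V ≃ₗ[F] V) = orderOf g := Subgroup.orderOf_coe g
    have := h.fix_le_two g.2 (by rw [hk']; exact hg) (by rw [hk']; exact hg2)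
    omega
  refine coreX hJ (nrep K) (a := 0) (c := f * m) hn h.hF (Or.inr h.dim) hfix (fun s hs hs2 P => h.cyc2 hn s hs hs2 P)
    (h.card_dvd2 rfl) h.rdvd ?_ ?_ ?_ ?_
  · intro r z _ _ _ a ha
    rw [hO, Subgroup.mem_bot] at ha
    rw [ha]
    exact Commute.one_right z
  · intro r z hr ho hz
    have hr2 : r ≠ 2 := ne_of_orderOf Nat.prime_two ho (by positivity)
    obtain ⟨_, hz1⟩ := zdata (ρ := nrep K) hf0 (by omega) h.hF (by rw [h.dim]; exact dvd_mul_left m 2) hr ho hz
      (hfix z (by rw [hz]; exact hr) (by rw [hz]; exact hr2))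
    apply fac_cent
    intro P hP hPz
    have := card_le_of_cent (ρ := nrep K) Nat.prime_two h2F nrep_inj hz1 h.dim hP hPz
    rwa [h.hF, ← pow_mul] at this
  · have := h.card_p
    rw [if_pos rfl] at this
    omega
  · omega

section caseB

variable [Finite K]

omit [Finite F] [FiniteDimensional F V] [Finite K] in
/-- the fixed space of `O_2(K)` is invariant -/
theorem fxs_core_inv (g : K) : ∀ w ∈ fxs (nrep K) (pCore 2 K), nrep K g w ∈ fxs (nrep K) (pCore 2 K) := by
  intro w hw
  refine fxs_inv ?_ hw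
  intro x hx
  have hn : (pCore 2 K).Normal := by
    have := Fact.mk Nat.prime_two
    exact Cfsg.Agent.Lib.Cores.pCore_normal 2
  have := hn.conj_mem x hx g⁻¹
  rwa [inv_inv] at this

/-- `C_V(O_2(K))` is its own perp and has dimension `m` -/
theorem D2.fxs_core (h : D2 Q 2 f m K) (hn : Nm f m) (hO : pCore 2 K ≠ ⊥) :
    finrank F (fxs (nrep K) (pCore 2 K)) = m ∧
      ∀ v, (∀ w ∈ fxs (nrep K) (pCore 2 K), polar Q v w = 0) → v ∈ fxs (nrep K) (pCore 2 K) := by
  have hFact := Fact.mk Nat.prime_two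
  have hm := hn.m6
  have hf0 := hn.f0
  have hntV : Nontrivial V := by
    apply Module.nontrivial_of_finrank_pos (R := F)
    rw [h.dim]; omega
  have h2F : 2 ∣ Nat.card F := by rw [h.hF]; exact dvd_pow_self 2 hf0.ne'
  have hB : IsPGroup 2 (pCore 2 K) := Cfsg.Agent.Lib.Cores.pCore_isPGroup 2
  set W := fxs (nrep K) (pCore 2 K) with hW
  obtain ⟨r, hr, ho⟩ := hn.ex_r
  have hr2 : r ≠ 2 := ne_of_orderOf Nat.prime_two ho (by positivity)
  have hFr := Fact.mk hr
  obtain ⟨z, hz⟩ := exists_prime_orderOf_dvd_card' (G := K) r (h.rdvd r hr (Or.inl ho))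
  obtain ⟨hz0, hz1⟩ := zdata (ρ := nrep K) hf0 (by omega) h.hF (by rw [h.dim]; exact dvd_mul_left m 2) hr ho hz (by
    rw [fx_nrep]
    have hk' : orderOf (z : V ≃ₗ[F] V) = r := by rw [Subgroup.orderOf_coe]; exact hz
    have := h.fix_le_two z.2 (by rw [hk']; exact hr) (by rw [hk']; exact hr2)
    omega)
  have hdim : ∀ U : Submodule F V, (∀ w ∈ U, nrep K z w ∈ U) → U ≠ ⊥ → U ≠ ⊤ → finrank F U = m := by
    intro U hU hU0 hU1
    obtain ⟨k, hk⟩ := hz1 U hU
    have h1 := Submodule.finrank_lt hU1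
    have h2 : 0 < finrank F U := Nat.pos_of_ne_zero fun h => hU0 (Submodule.finrank_eq_zero.1 h)
    rw [hk, h.dim] at h1
    rw [hk] at h2
    have hk1 : k = 1 := by
      rcases k with _ | _ | k
      · omega
      · rfl
      · exfalso; nlinarith
    rw [hk, hk1, mul_one]
  have hWz : ∀ g : K, ∀ w ∈ W, nrep K g w ∈ W := fun g => fxs_core_inv g
  obtain ⟨v0, hv0, hv00⟩ := exists_fixed (ρ := nrep K) Nat.prime_two h2F hB
  have hWb : W ≠ ⊥ := fun h => hv00 ((Submodule.eq_bot_iff _).1 h v0 hv0)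
  have hWt : W ≠ ⊤ := by
    intro hWt
    apply hO
    rw [eq_bot_iff]
    intro g hg
    rw [Subgroup.mem_bot]
    apply nrep_inj
    rw [map_one]
    ext v
    have : v ∈ W := by rw [hWt]; trivial
    exact this g hg
  have hWd := hdim W (hWz z) hWb hWt
  refine ⟨hWd, ?_⟩
  -- the perp
  let W' : Submodule F V :=
    { carrier := {v | ∀ w ∈ W, polar Q v w = 0}
      zero_mem' := fun w _ => by rw [polar_zero_left]
      add_mem' := fun {a b} ha hb w hw => by rw [polar_add_left, ha w hw, hb w hw, add_zero]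
      smul_mem' := fun c v hv w hw => by rw [polar_smul_left, hv w hw, smul_zero] }
  have hiso : ∀ (g : K) (v w : V), polar Q (nrep K g v) (nrep K g w) = polar Q v w := by
    intro g v w
    rw [polar, polar, nrep_apply, nrep_apply, ← map_add, h.iso g g.2, h.iso g g.2, h.iso g g.2]
  have hW'z : ∀ g : K, ∀ w ∈ W', nrep K g w ∈ W' := by
    intro g w hw x hx
    have h1 : x = nrep K g (nrep K g⁻¹ x) := by
      rw [← Module.End.mul_apply, ← map_mul, mul_inv_cancel, map_one, Module.End.one_apply]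
    rw [h1, hiso]
    exact hw _ (hWz g⁻¹ x hx)
  have hW'0 : W' ≠ ⊥ := by
    intro h0
    let T : V →ₗ[F] Dual F W := (Submodule.dualRestrict W).comp Q.polarBilin
    have h1 : LinearMap.ker T = ⊥ := by
      rw [eq_bot_iff, ← h0]
      intro v hv w hw
      exact LinearMap.congr_fun (LinearMap.mem_ker.1 hv) ⟨w, hw⟩
    have h2 := LinearMap.finrank_range_add_finrank_ker T
    have h3 := Submodule.finrank_le (LinearMap.range T)
    rw [Subspace.dual_finrank_eq] at h3
    rw [h1, finrank_bot, h.dim] at h2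
    omega
  obtain ⟨v1, hv1, hv1W, hv10⟩ := exists_fixed_sub (ρ := nrep K) Nat.prime_two h2F hW'z hW'0 hB
  have hI : W ⊓ W' ≠ ⊥ := by
    intro h0
    exact hv10 ((Submodule.eq_bot_iff _).1 h0 v1 ⟨hv1W, hv1⟩)
  have hIt : W ⊓ W' ≠ ⊤ := fun h0 => hWt (top_le_iff.1 (h0 ▸ inf_le_left))
  have hId := hdim (W ⊓ W') (fun w hw => ⟨hWz z w hw.1, hW'z z w hw.2⟩) hI hIt
  have hIW : W ⊓ W' = W := Submodule.eq_of_le_of_finrank_eq inf_le_left (by rw [hId, hWd])
  have hW't : W' ≠ ⊤ := by
    intro h0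
    apply hv00
    apply h.nd
    intro w
    rw [polar_comm]
    have : w ∈ W' := by rw [h0]; trivial
    exact this v0 hv0
  have hW'd := hdim W' (hW'z z) hW'0 hW't
  have hWW' : W = W' := Submodule.eq_of_le_of_finrank_eq (inf_eq_left.1 hIW) (by rw [hWd, hW'd])
  intro v hv
  have : v ∈ W' := hv
  rwa [← hWW'] at this

/-- a normal subgroup acting trivially on `W` (of dimension `m`) and on `V/W` has order at most `q ^ m` -/
theorem D2.ker_bound (h : D2 Q 2 f m K) (hn : Nm f m) {W : Submodule F V} (hWd : finrank F W = m) {N : Subgroup K}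
    [N.Normal] (hNf : ∀ g ∈ N, ∀ w ∈ W, nrep K g w = w) (hNd : ∀ g ∈ N, ∀ v, nrep K g v - v ∈ W) {n : ℕ}
    (hn' : Nat.card N = 2 ^ n) : n ≤ f * m := by
  have hm := hn.m6
  have hf0 := hn.f0
  -- fixed spaces of elements of `N`
  have hfxN : ∀ g ∈ N, g ≠ 1 → W ≤ fx (nrep K) g ∧ finrank F (fx (nrep K) g) ≤ m + 1 ∧
      Even (finrank F (fx (nrep K) g)) := by
    intro g hg hg1
    refine ⟨fun w hw => mem_fxl.2 (hNf g hg w hw), ?_, ?_⟩
    · rw [fx_nrep]
      exact h.fix_le g.2 fun h1 => hg1 (Subtype.ext h1)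
    · rw [fx_nrep]
      exact h.fix_even g.2
  obtain ⟨v1, hv1⟩ : ∃ v1, v1 ∉ W := by
    by_contra hcon
    push Not at hcon
    have h1 : W = ⊤ := by rw [eq_top_iff]; exact fun v _ => hcon v
    rw [h1, finrank_top, h.dim] at hWd
    omega
  rcases Nat.even_or_odd m with hme | hmo
  · -- `m` even
    have h1 : Nat.card N ≤ Nat.card W := by
      have hfV : Finite V := Module.finite_of_finite F
      refine Nat.card_le_card_of_injective (fun g : N => (⟨nrep K (g : K) v1 - v1, hNd g g.2 v1⟩ : W)) ?_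
      intro a b hab
      have h1 : nrep K (a : K) v1 - v1 = nrep K (b : K) v1 - v1 := congrArg Subtype.val hab
      have h2 : nrep K (a : K) v1 = nrep K (b : K) v1 := sub_left_inj.1 h1
      by_contra hne
      have h3 : ((b : K)⁻¹ * a) ≠ 1 := fun h => hne (Subtype.ext (inv_mul_eq_one.1 h).symm)
      have h4 : v1 ∈ fx (nrep K) ((b : K)⁻¹ * a) := by
        rw [mem_fxl, map_mul, Module.End.mul_apply, h2, ← Module.End.mul_apply, ← map_mul, inv_mul_cancel, map_one,
          Module.End.one_apply]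
      obtain ⟨h5, h6, h7⟩ := hfxN _ (mul_mem (inv_mem b.2) a.2) h3
      have h8 : W = fx (nrep K) ((b : K)⁻¹ * a) := by
        apply Submodule.eq_of_le_of_finrank_le h5
        rw [hWd]
        by_contra hcon
        have h9 : finrank F (fx (nrep K) ((b : K)⁻¹ * a)) = m + 1 := by omega
        rw [h9] at h7
        exact (Nat.not_even_iff_odd.2 hme.add_one) h7
      rw [← h8] at h4
      exact hv1 h4
    rw [hn', Module.natCard_eq_pow_finrank (K := F) (V := W), hWd, h.hF, ← pow_mul] at h1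
    exact (Nat.pow_le_pow_iff_right (by norm_num)).1 h1
  · -- `m` odd
    obtain ⟨r, hr, ho⟩ := hn.ex_r
    have hr2 : r ≠ 2 := ne_of_orderOf Nat.prime_two ho (by positivity)
    have hFr := Fact.mk hr
    obtain ⟨z, hz⟩ := exists_prime_orderOf_dvd_card' (G := K) r (h.rdvd r hr (Or.inl ho))
    obtain ⟨hz0, hz1⟩ := zdata (ρ := nrep K) hf0 (by omega) h.hF (by rw [h.dim]; exact dvd_mul_left m 2) hr ho hz (by
      rw [fx_nrep]
      have hk' : orderOf (z : V ≃ₗ[F] V) = r := by rw [Subgroup.orderOf_coe]; exact hz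
      have := h.fix_le_two z.2 (by rw [hk']; exact hr) (by rw [hk']; exact hr2)
      omega)
    have hcz : ∀ g ∈ N, Commute z g → g = 1 := by
      intro g hg hc
      by_contra hg1
      obtain ⟨h5, h6, h7⟩ := hfxN g hg hg1
      have h8 : m ∣ finrank F (fx (nrep K) g) := by
        apply hz1
        intro w hw
        rw [mem_fxl] at hw ⊢
        rw [← Module.End.mul_apply, ← map_mul, ← hc.eq, map_mul, Module.End.mul_apply, hw]
      have h9 := Submodule.finrank_mono h5
      rw [hWd] at h9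
      have h10 : finrank F (fx (nrep K) g) = m ∨ finrank F (fx (nrep K) g) = m + 1 := by omega
      rcases h10 with h10 | h10
      · rw [h10] at h7
        exact (Nat.not_even_iff_odd.2 hmo) h7
      · rw [h10] at h8
        have h11 : m ∣ 1 := (Nat.dvd_add_right dvd_rfl).1 h8
        have := Nat.le_of_dvd one_pos h11
        omega
    -- z acts on N
    let _ : MulAction (zpowers z) N := MulAction.compHom N ((MulAut.conjNormal (H := N)).comp (zpowers z).subtype)
    have hpz : IsPGroup r (zpowers z) := by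
      rw [IsPGroup.iff_card]
      exact ⟨1, by rw [Nat.card_zpowers, hz, pow_one]⟩
    have h1 := hpz.card_modEq_card_fixedPoints N
    have h2 : Nat.card (MulAction.fixedPoints (zpowers z) N) = 1 := by
      rw [Nat.card_eq_one_iff_unique]
      refine ⟨⟨?_⟩, ⟨⟨1, ?_⟩⟩⟩
      · have h3 : ∀ x : MulAction.fixedPoints (zpowers z) N, (x : N) = 1 := by
          rintro ⟨x, hx⟩
          have h4 := hx ⟨z, Subgroup.mem_zpowers z⟩
          have h5 : z * (x : K) * z⁻¹ = x := congrArg Subtype.val h4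
          exact Subtype.ext (hcz x x.2 (mul_inv_eq_iff_eq_mul.1 h5))
        intro a b
        exact Subtype.ext ((h3 a).trans (h3 b).symm)
      · intro g
        change (MulAut.conjNormal (g : K) : MulAut N) 1 = 1
        exact map_one _
    rw [h2, hn'] at h1
    have h3 : orderOf ((2 : ℕ) : ZMod r) ∣ n - 0 :=
      pow_mod (s := r) (q := 2) (n := n) (e := 0) (fun h4 => hr2 ((Nat.prime_dvd_prime_iff_eq hr Nat.prime_two).1 h4))
        (Nat.zero_le n) (by rw [pow_zero]; exact h1)
    rw [Nat.sub_zero, ho] at h3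
    have h4 : n ≤ f * (2 * m - 2) := by
      have h5 : 2 ^ n ∣ 2 ^ (f * (2 * m - 2)) * ((2 ^ (f * m) - 1) * (2 ^ (f * (m - 1)) - 1)) := by
        rw [← mul_assoc, ← hn']
        exact (Subgroup.card_subgroup_dvd_card N).trans (h.card_dvd2 rfl)
      have h6 : Nat.Coprime (2 ^ n) ((2 ^ (f * m) - 1) * (2 ^ (f * (m - 1)) - 1)) := by
        apply Nat.Coprime.pow_left
        exact Nat.Coprime.mul_right (coprime_pow_sub_one Nat.prime_two (Nat.mul_ne_zero hf0.ne' (by omega)))
          (coprime_pow_sub_one Nat.prime_two (Nat.mul_ne_zero hf0.ne' (by omega)))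
      have h7 := h6.dvd_of_dvd_mul_right h5
      exact (Nat.pow_dvd_pow_iff_le_right (by norm_num)).1 h7
    obtain ⟨k, hk⟩ := h3
    have hk1 : k ≤ 1 := by
      by_contra hcon
      push Not at hcon
      have h5 : f * m * 2 ≤ f * m * k := Nat.mul_le_mul_left _ hcon
      have h6 : f * (2 * m - 2) < f * m * 2 := by
        rw [mul_assoc, mul_comm m 2]
        exact Nat.mul_lt_mul_of_pos_left (by omega) hf0
      omega
    rw [hk]
    calc f * m * k ≤ f * m * 1 := Nat.mul_le_mul_left _ hk1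
      _ = f * m := mul_one _

/-- the action on `W` -/
theorem D2.quot_false (hJ : OutJ1.{v}) (h : D2 Q 2 f m K) (hn : Nm f m) {W : Submodule F V} (hWd : finrank F W = m)
    (N : Subgroup K) [N.Normal] {n : ℕ} (hn' : Nat.card N = 2 ^ n) (hnle : n ≤ f * m) (ρq : K ⧸ N →* Module.End F W)
    (hinj : Function.Injective ρq) : False := by
  have hFact := Fact.mk Nat.prime_two
  have hm := hn.m6
  have hf0 := hn.f0
  have h2F : 2 ∣ Nat.card F := by rw [h.hF]; exact dvd_pow_self 2 hf0.ne'
  have hmc : Nat.card K = Nat.card (K ⧸ N) * Nat.card N := Subgroup.card_eq_card_quotient_mul_card_subgroup N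
  have hntW : Nontrivial W := by
    apply Module.nontrivial_of_finrank_pos (R := F)
    rw [hWd]; omega
  have hfix : ∀ g : K ⧸ N, (orderOf g).Prime → orderOf g ≠ 2 → finrank F (fx ρq g) < m := by
    intro g hg _
    rw [← hWd]
    apply Submodule.finrank_lt
    intro h1
    have h2 : g = 1 := by
      apply hinj
      rw [map_one]
      ext1 w
      have : w ∈ fx ρq g := by rw [h1]; trivial
      exact mem_fxl.1 this
    rw [h2, orderOf_one] at hg
    exact Nat.not_prime_one hg
  have hzd : ∀ (r : ℕ) (z : K ⧸ N), r.Prime → orderOf ((2 : ℕ) : ZMod r) = f * m → orderOf z = r →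
      ∀ U : Submodule F W, (∀ w ∈ U, ρq z w ∈ U) → m ∣ finrank F U := by
    intro r z hr ho hz
    have hr2 : r ≠ 2 := ne_of_orderOf Nat.prime_two ho (by positivity)
    exact (zdata (ρ := ρq) hf0 (by omega) h.hF (by rw [hWd]) hr ho hz
      (hfix z (by rw [hz]; exact hr) (by rw [hz]; exact hr2))).2
  have htriv : ∀ P : Subgroup (K ⧸ N), fxs ρq P = ⊤ → P = ⊥ := by
    intro P hP
    rw [eq_bot_iff]
    intro g hg
    rw [Subgroup.mem_bot]
    apply hinj
    rw [map_one]
    ext1 w
    have : w ∈ fxs ρq P := by rw [hP]; trivial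
    exact this g hg
  have hcard2 : Nat.card K = Nat.card (K ⧸ N) * 2 ^ n := by rw [hmc, hn']
  refine coreX hJ ρq (a := n) (c := 0) hn h.hF (Or.inl hWd) hfix ?_ ?_ ?_ ?_ ?_ ?_ ?_
  · intro s hs hs2 P
    exact cyc_quot hs (fun P => h.cyc2 hn s hs hs2 P) (QuotientGroup.mk' N) (QuotientGroup.mk'_surjective N) P
  · exact (Subgroup.card_quotient_dvd_card N).trans (h.card_dvd2 rfl)
  · intro r hr hro
    have h1 := h.rdvd r hr hro
    rw [hcard2] at h1
    refine ((Nat.Prime.dvd_mul hr).1 h1).resolve_right fun h2 => ?_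
    have hr2 := (Nat.prime_dvd_prime_iff_eq hr Nat.prime_two).1 (hr.dvd_of_dvd_pow h2)
    rcases hro with ho | ho
    · exact ne_of_orderOf Nat.prime_two ho (by positivity) hr2
    · exact ne_of_orderOf Nat.prime_two ho (Nat.mul_ne_zero hf0.ne' (by omega)) hr2
  · intro r z hr ho hz a ha
    have hnP : (pCore 2 (K ⧸ N)).Normal := Cfsg.Agent.Lib.Cores.pCore_normal 2
    have h1 := htriv _ (fxs_top (ρ := ρq) (z := z) Nat.prime_two h2F (hzd r z hr ho hz) hWd
      (Cfsg.Agent.Lib.Cores.pCore_isPGroup (G := K ⧸ N) 2) (by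
        intro g hg
        have := hnP.conj_mem g hg z⁻¹
        rwa [inv_inv] at this))
    rw [h1, Subgroup.mem_bot] at ha
    rw [ha]
    exact Commute.one_right z
  · intro r z hr ho hz
    apply fac_cent
    intro P hP hPz
    have h1 := htriv P (fxs_top (ρ := ρq) (z := z) Nat.prime_two h2F (hzd r z hr ho hz) hWd hP (by
        intro g hg
        rw [mul_assoc, (hPz g hg).eq, inv_mul_cancel_left]
        exact hg))
    rw [h1, Subgroup.card_bot, pow_zero]
  · have h1 := h.card_p
    rw [if_pos rfl, hcard2, Nat.factorization_mul Nat.card_pos.ne' (pow_ne_zero _ two_ne_zero), Finsupp.add_apply,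
      Nat.Prime.factorization_pow Nat.prime_two, Finsupp.single_eq_same] at h1
    exact h1
  · omega

/-- the case `O_2(K) ≠ 1` -/
theorem D2.case_B (hJ : OutJ1.{v}) (h : D2 Q 2 f m K) (hn : Nm f m) (hO : pCore 2 K ≠ ⊥) : False := by
  have hFact := Fact.mk Nat.prime_two
  have hchar : CharP F 2 := h.charP
  obtain ⟨hWd, hWp⟩ := h.fxs_core hn hO
  have hWz : ∀ g : K, ∀ w ∈ fxs (nrep K) (pCore 2 K), nrep K g w ∈ fxs (nrep K) (pCore 2 K) := fun g => fxs_core_inv g
  have hiso : ∀ (g : K) (v w : V), polar Q (nrep K g v) (nrep K g w) = polar Q v w := by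
    intro g v w
    rw [polar, polar, nrep_apply, nrep_apply, ← map_add, h.iso g g.2, h.iso g g.2, h.iso g g.2]
  generalize fxs (nrep K) (pCore 2 K) = W at hWd hWp hWz
  have hNf : ∀ g ∈ (resRep (nrep K) W hWz).ker, ∀ w ∈ W, nrep K g w = w := by
    intro g hg w hw
    have h1 := LinearMap.congr_fun (MonoidHom.mem_ker.1 hg) ⟨w, hw⟩
    exact congrArg Subtype.val h1
  have hNd : ∀ g ∈ (resRep (nrep K) W hWz).ker, ∀ v, nrep K g v - v ∈ W := by
    intro g hg v
    apply hWp
    intro w hw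
    rw [polar_sub_left, sub_eq_zero]
    conv_lhs => rw [← hNf g hg w hw]
    exact hiso g v w
  have hN2 : ∀ g ∈ (resRep (nrep K) W hWz).ker, g ^ 2 = 1 := by
    intro g hg
    apply nrep_inj
    rw [map_one, pow_two, map_mul]
    ext1 v
    rw [Module.End.mul_apply, Module.End.one_apply]
    have h1 := hNf g hg _ (hNd g hg v)
    rw [map_sub] at h1
    have h2 : nrep K g (nrep K g v) = (nrep K g v + nrep K g v) - v := by
      rw [sub_eq_iff_eq_add] at h1
      rw [h1]; abel
    have h3 : nrep K g v + nrep K g v = 0 := by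
      rw [← two_smul F, CharTwo.two_eq_zero, zero_smul]
    rw [h2, h3, zero_sub]
    have h4 : v + v = 0 := by rw [← two_smul F, CharTwo.two_eq_zero, zero_smul]
    exact neg_eq_of_add_eq_zero_left h4
  have hNp : IsPGroup 2 (resRep (nrep K) W hWz).ker := by
    intro x
    refine ⟨1, Subtype.ext ?_⟩
    rw [pow_one]
    exact hN2 x x.2
  obtain ⟨n, hn'⟩ := IsPGroup.iff_card.1 hNp
  have hb := h.ker_bound hn hWd hNf hNd hn'
  have hinj : Function.Injective (QuotientGroup.lift (resRep (nrep K) W hWz).ker (resRep (nrep K) W hWz) le_rfl) := by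
    rw [injective_iff_map_eq_one]
    intro x hx
    obtain ⟨g, rfl⟩ := QuotientGroup.mk_surjective x
    rw [QuotientGroup.lift_mk] at hx
    exact (QuotientGroup.eq_one_iff g).2 (MonoidHom.mem_ker.2 hx)
  exact h.quot_false hJ hn hWd (resRep (nrep K) W hWz).ker hn' hb _ hinj

end caseB

/-- **11.2 (a)** : `q = 2, 4` -/
theorem D2.small_case (hJ : OutJ1.{v}) (h : D2 Q p f m K) (hq : p ^ f = 2 ∨ p ^ f = 4) : False := by
  obtain ⟨rfl, hn⟩ := h.nm hq
  have hfV : Finite V := Module.finite_of_finite F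
  have : Finite (V ≃ₗ[F] V) := Finite.of_injective (fun e : V ≃ₗ[F] V => (e : V → V)) DFunLike.coe_injective
  by_cases hO : pCore 2 K = ⊥
  · exact h.case_A hJ hn hO
  · exact h.case_B hJ hn hO

end Cfsg.Agent.H386.Rg
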